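import Mathlib
import Cfsg.Agent.H25.CenB

/-! Order bounds for subgroups of `Co₀` centralising given elements. -/

set_option linter.all false

namespace Cfsg.Agent.H25.CenB
open Cfsg Cfsg.Agent.H25 Cfsg.Agent.H25.Leech Cfsg.Spor

structure WL where
  b : ℕ
  n : ℕ
  Q : List ℕ
  C : List (List ℕ × ℕ)
  s : List (List ℕ)

/-- the codes `Q` are images of known fixed codes under words -/
noncomputable def cert (ts : List TR) (m : ℕ) (B Q : List ℕ) (C : List (List ℕ × ℕ)) : Bool :=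
  allL (fun q => anyL (fun p : List ℕ × ℕ => band (smallW m p.1)
    (band (Nat.ble (Nat.succ p.2) B.length) (Nat.beq q (actW ts p.1 (gd 0 B p.2))))) C) Q

noncomputable def WL.ok (ts : List TR) (m N : ℕ) (vec : ℕ → ℕ) (B : List ℕ) (l : WL) : Bool :=
  band (band (Nat.ble (Nat.succ l.b) N) (band (cert ts m B l.Q l.C) (allL (smallW m) l.s)))
    (Nat.ble (force (vec l.b) fun v => tst (fun c => c) v l.Q fun f =>
      cnt2 (fun i => band (Nat.ble (Nat.succ i) N) (band (f (vec i)) (allL (fun w =>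
        Nat.beq ((prepV (vec i)).dot 64 (actW ts w (vec i))) ((prepV v).dot 64 (actW ts w v))) l.s)))
          0 (Nat.succ (Nat.div N 64))) l.n)

noncomputable def wlOK (ts : List TR) (m N : ℕ) (vec : ℕ → ℕ) (B0 : List ℕ) (C0 : List (List ℕ × ℕ))
    (ls : List WL) : List ℕ → Bool :=
  List.rec (motive := fun _ => List ℕ → Bool) (fun B => cert ts m B B0 C0)
    (fun l _ ih B => band (l.ok ts m N vec B) (force (vec l.b) fun v => ih (v :: B))) ls

theorem wl_bound [Finite Co0] {Ms : List ℕ} (hM : ∀ M ∈ Ms, ok M = true) {K : Subgroup Co0} {N : ℕ} {vec : ℕ → ℕ}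
    (hv : ∀ i < N, VC (vec i)) (hK : ∀ c ∈ K, ∀ a < Ms.length, c * l0 Ms a = l0 Ms a * c)
    (hcl : ∀ c ∈ K, ∀ i < N, ∃ j < N, c • pt (vec i) = pt (vec j)) {B0 : List ℕ}
    (hB : ∀ c ∈ K, (∀ q ∈ B0, c • pt q = pt q) → c = 1) {C0 : List (List ℕ × ℕ)} (ls : List WL) :
    ∀ B, (∀ b ∈ B, VC b) → wlOK (Ms.map prep) Ms.length N vec B0 C0 ls B = true →
      Nat.card (K ⊓ fixB Co0 pt B : Subgroup Co0) ≤ (ls.map WL.n).prod := by
  have mv : ∀ c ∈ K, ∀ w, smallW Ms.length w = true → ∀ u v, VC u → VC v → c • pt u = pt v →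
      c • pt (actW (Ms.map prep) w u) = pt (actW (Ms.map prep) w v) := fun c hc w hw u v hu hv e => by
    have : ev (l0 Ms) w ∈ Subgroup.centralizer {c} := ev_mem fun a ha =>
      Subgroup.mem_centralizer_singleton_iff.2 (hK c hc a (Nat.le_of_ble_eq_true (allL_sound hw a ha))).symm
    rw [← (actW_spec hM hw hu).2, ← (actW_spec hM hw hv).2, ← e, smul_smul, smul_smul,
      Subgroup.mem_centralizer_singleton_iff.1 (Subgroup.inv_mem _ this)]
  have fx : ∀ B Q C, (∀ b ∈ B, VC b) → cert (Ms.map prep) Ms.length B Q C = true →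
      ∀ c ∈ K ⊓ fixB Co0 pt B, ∀ q ∈ Q, VC q ∧ c • pt q = pt q := fun B Q C hB hQ c hc q hq => by
    obtain ⟨p, -, e⟩ := anyL_sound (allL_sound hQ q hq)
    simp only [band_eq, Bool.and_eq_true, Nat.ble_eq] at e
    have hm := gd_mem 0 (show p.2 < B.length from e.2.1)
    rw [Nat.eq_of_beq_eq_true e.2.2]
    exact ⟨(actW_spec hM e.1 (hB _ hm)).1, mv c hc.1 _ e.1 _ _ (hB _ hm) (hB _ hm) (hc.2 _ hm)⟩
  have dt : ∀ (c : Co0) {i j i' j'}, VC i → VC j → VC i' → VC j' → c • pt i = pt i' →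
      c • pt j = pt j' → Nat.beq ((prepV i').dot 64 j') ((prepV i).dot 64 j) = true :=
    fun c _ _ _ _ a1 a2 a3 a4 e1 e2 => Nat.beq_eq ▸ Int.ofNat_inj.1 (by
      rw [dot64 a3 a4, dot64 a1 a2, ← e1, ← e2, g_dot])
  induction ls with
  | nil =>
    intro B hb hc
    exact (Subgroup.card_eq_one.2 (eq_bot_iff.2 fun c (hm : c ∈ K ⊓ fixB Co0 pt B) =>
      hB c hm.1 fun q hq => (fx B B0 C0 hb hc c hm q hq).2)).le
  | cons l ls ih =>
    intro B hb hc
    have hc' : band (l.ok (Ms.map prep) Ms.length N vec B) (force (vec l.b) fun v =>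
      wlOK (Ms.map prep) Ms.length N vec B0 C0 ls (v :: B)) = true := hc
    simp only [WL.ok, band_eq, Bool.and_eq_true, Nat.ble_eq, force_eq, tst_eq, cnt2_eq] at hc'
    obtain ⟨⟨⟨h1, h2, h5⟩, h3⟩, h4⟩ := hc'
    rw [List.map_cons, List.prod_cons]
    refine (lev_bound (N := N) (b := vec l.b) fun c hm => ?_).trans (Nat.mul_le_mul ((Finset.card_image_le (f := vec)).trans h3)
      (ih _ (by simpa [hv _ h1] using hb) h4))
    obtain ⟨j, hj, e⟩ := hcl c hm.1 l.b h1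
    refine ⟨vec j, Finset.mem_image_of_mem vec (Finset.mem_filter.2 ⟨Finset.mem_Ico.2 ⟨Nat.zero_le _, ?_⟩, hj,
      allL_of fun q hq => ?_, allL_of fun w hw => ?_⟩), e⟩
    · show j < 0 + (N / 64 + 1) * 64
      omega
    · obtain ⟨a1, a2⟩ := fx B l.Q l.C hb h2 c hm q hq
      exact dt c a1 (hv _ h1) a1 (hv _ hj) a2 e
    · have hw' := allL_sound h5 w hw
      exact dt c (hv _ h1) (actW_spec hM hw' (hv _ h1)).1 (hv _ hj) (actW_spec hM hw' (hv _ hj)).1 e
        (mv c hm.1 w hw' _ _ (hv _ h1) (hv _ hj) e)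

end Cfsg.Agent.H25.CenB
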