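import Mathlib
import Cfsg.Agent.H25.Util
import Cfsg.Agent.H25.Co1M2D

set_option maxRecDepth 100000
set_option linter.all false

namespace Cfsg.Agent.H25.Co1M
open Cfsg.Agent.H25

open Cfsg.Agent.H28 Cfsg.Agent.H25.Leech

theorem c1p2_1 : c1p2.ok1 (nat_lit 0x1fffff) = true := by decide +kernel
theorem c1p2U1_0 : chU ([], []) c1p2.relA c1p2.RA c1p2U1 0 285 = true := by decide +kernel
theorem c1p2U2_0 : chU (0, []) c1p2.relB c1p2.RB c1p2U2 0 247 = true := by decide +kernel
theorem c1p2_l : c1p2.lin (app c1p2U1 c1p2U2) = true := by decide +kernel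
theorem c1p2_2 : c1p2.ok2 = true := ok2_of (map_eq_of (rng_all (chU_sound c1p2U1_0)) (by decide +kernel))
  (map_eq_of (rng_all (chU_sound c1p2U2_0)) (by decide +kernel)) c1p2_l

end Cfsg.Agent.H25.Co1M
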