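import Mathlib
import Cfsg.Agent.H25.Util
import Cfsg.Agent.H25.Co1M2D

set_option maxRecDepth 100000
set_option linter.all false

namespace Cfsg.Agent.H25.Co1M
open Cfsg.Agent.H25

open Cfsg.Agent.H28 Cfsg.Agent.H25.Leech

theorem c1p2_e0 : eqMs c1p2M c1p2.eqs 25 0 19 = true := by decide +kernel
theorem c1p2_e1 : eqMs c1p2M c1p2.eqs 25 19 38 = true := by decide +kernel
theorem c1p2_e2 : eqMs c1p2M c1p2.eqs 25 38 58 = true := by decide +kernel
theorem c1p2_e3 : eqMs c1p2M c1p2.eqs 25 58 79 = true := by decide +kernel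
theorem c1p2_e4 : eqMs c1p2M c1p2.eqs 25 79 98 = true := by decide +kernel
theorem c1p2_e5 : eqMs c1p2M c1p2.eqs 25 98 118 = true := by decide +kernel
theorem c1p2_e6 : eqMs c1p2M c1p2.eqs 25 118 139 = true := by decide +kernel
theorem c1p2_e7 : eqMs c1p2M c1p2.eqs 25 139 160 = true := by decide +kernel
theorem c1p2_e8 : eqMs c1p2M c1p2.eqs 25 160 181 = true := by decide +kernel

end Cfsg.Agent.H25.Co1M
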