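import Mathlib
import Cfsg.Agent.H25.Util
import Cfsg.Agent.H25.Co1M2D

set_option maxRecDepth 100000
set_option linter.all false

namespace Cfsg.Agent.H25.Co1M
open Cfsg.Agent.H25

open Cfsg.Agent.H28 Cfsg.Agent.H25.Leech

theorem c1p2_e9 : eqMs c1p2M c1p2.eqs 25 181 203 = true := by decide +kernel
theorem c1p2_e10 : eqMs c1p2M c1p2.eqs 25 203 225 = true := by decide +kernel
theorem c1p2_e11 : eqMs c1p2M c1p2.eqs 25 225 242 = true := by decide +kernel
theorem c1p2_e12 : eqMs c1p2M c1p2.eqs 25 242 259 = true := by decide +kernel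
theorem c1p2_e13 : eqMs c1p2M c1p2.eqs 25 259 276 = true := by decide +kernel
theorem c1p2_e14 : eqMs c1p2M c1p2.eqs 25 276 293 = true := by decide +kernel
theorem c1p2_e15 : eqMs c1p2M c1p2.eqs 25 293 309 = true := by decide +kernel
theorem c1p2_e16 : eqMs c1p2M c1p2.eqs 25 309 311 = true := by decide +kernel

end Cfsg.Agent.H25.Co1M
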