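import Mathlib
import Cfsg.Agent.H25.Util
import Cfsg.Agent.H25.Co1M2A
import Cfsg.Agent.H25.Co1M2B
import Cfsg.Agent.H25.Co1M2C

set_option maxRecDepth 100000
set_option linter.all false

namespace Cfsg.Agent.H25.Co1M
open Cfsg.Agent.H25

open Cfsg.Agent.H28 Cfsg.Agent.H25.Leech

theorem c1p2_ok : allL ok c1p2M = true := by decide +kernel
theorem c1p2_a : amc c1p2v c1p2T (c1p2M.take 21 ++ [mneg]) 0 48 = true := by decide +kernel
theorem pb2 : PB Spor.Co1 2 1 :=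
  pb_quo (e := 2) (L := 21) (by norm_num) c1p2_1 c1p2_2 (rng_all (rng_join (rng_join (rng_join (rng_join (rng_join (rng_join (rng_join (rng_join (rng_join (rng_join (rng_join (rng_join (rng_join (rng_join (rng_join (rng_join (eqMs_sound (oks c1p2_ok) c1p2_e0) (eqMs_sound (oks c1p2_ok) c1p2_e1)) (eqMs_sound (oks c1p2_ok) c1p2_e2)) (eqMs_sound (oks c1p2_ok) c1p2_e3)) (eqMs_sound (oks c1p2_ok) c1p2_e4)) (eqMs_sound (oks c1p2_ok) c1p2_e5)) (eqMs_sound (oks c1p2_ok) c1p2_e6)) (eqMs_sound (oks c1p2_ok) c1p2_e7)) (eqMs_sound (oks c1p2_ok) c1p2_e8)) (eqMs_sound (oks c1p2_ok) c1p2_e9)) (eqMs_sound (oks c1p2_ok) c1p2_e10)) (eqMs_sound (oks c1p2_ok) c1p2_e11)) (eqMs_sound (oks c1p2_ok) c1p2_e12)) (eqMs_sound (oks c1p2_ok) c1p2_e13)) (eqMs_sound (oks c1p2_ok) c1p2_e14)) (eqMs_sound (oks c1p2_ok) c1p2_e15)) (eqMs_sound (oks c1p2_ok) c1p2_e16))) (by decide +kernel)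
    (card_l0 (n := 47) (r := 64) (ls := c1p2c) (fun M h => (List.mem_append.1 h).elim (fun h => oks c1p2_ok M (List.mem_of_mem_take h))
      fun h => by rw [List.mem_singleton.1 h]; exact mneg_ok) (by decide +kernel) (by decide +kernel) (by decide +kernel)
      c1p2_a (by decide +kernel) (by decide +kernel)) (by decide +kernel)



end Cfsg.Agent.H25.Co1M
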