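import Mathlib
import Cfsg.Agent.H25.Util
import Cfsg.Agent.H25.Co2M2
import Cfsg.Agent.H25.Co2M3
import Cfsg.Agent.H25.Co2M5

set_option maxRecDepth 100000
set_option linter.all false

namespace Cfsg.Agent.H25.Co2M
open Cfsg.Agent.H25

open Cfsg.Agent.H25.Leech

abbrev G0 := ↥C2
theorem hcard : Nat.card G0 = 42305421312000 := card_C2
theorem bound (Γ : Type) [Group Γ] [Finite Γ] (σ : Γ →* G0) (hσ : IsStemExtension σ) :
    Nat.card σ.ker ≤ 1 :=
  card_ker_dvd (B := 23) [(2, 0), (3, 0), (5, 0)] hcard (by decide +kernel) (by decide +kernel) (by norm_num) (by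
    simp only [List.mem_cons, List.not_mem_nil, or_false, forall_eq_or_imp, forall_eq]
    exact ⟨⟨pb2, by decide⟩,
      ⟨pb3, by decide⟩,
      ⟨pb5, by decide⟩⟩) Γ σ hσ

theorem mult : HasCyclicSchurMultiplier Spor.Co2 1 :=
  haveI := Finite.of_equiv _ eqC2.toEquiv
  trivial_of_le (bound_congr eqC2.symm bound)

end Cfsg.Agent.H25.Co2M
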