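import Mathlib
import Cfsg.Agent.H25.Util
import Cfsg.Agent.H25.PBridge
import Cfsg.Agent.H15.Fi23
import Cfsg.Agent.H25.Fi23T2
import Cfsg.Agent.H25.Fi23T3
import Cfsg.Agent.H25.Fi23T5

set_option maxRecDepth 100000
set_option linter.all false

namespace Cfsg.Agent.H25.Fi23
open Cfsg.Agent.H25

open Fi23T2 Fi23T3 Fi23T5

abbrev G0 := H15.Fi23.G
noncomputable abbrev g : ℕ → G0 := H15.Fi23.E
theorem hcard : Nat.card G0 = 4089470473293004800 := H15.Fi23.card
noncomputable def chk (w : List ℕ) : Bool := H15.eqOn H15.Fi23.A0.ap H15.Fi23.A0.L H15.Fi23.bs w []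
theorem hchk : ∀ w, chk w = true → ev g w = 1 := base_chk H15.Fi23.base0
noncomputable def P : List (List ℕ) := relL H15.Fi23.D.B
theorem relP : Rel g P 0 (2 ^ 10 - 1) := (pres_rel H15.Fi23.good (by decide +kernel) :)
theorem htop : Lc (2 ^ 10 - 1) g = ⊤ := (pres_top H15.Fi23.good :)
theorem hP : ∀ w ∈ P, ev g w = 1 := (pres_rels H15.Fi23.good :)

theorem fi23t2_cb : CB 2 (Lc (2 ^ 10 - 1) g) 1 :=
  cb_step' (V := fi23t2) (m0 := 1) hchk (by decide +kernel) fi23t2_E fi23t2_R (by decide +kernel)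
    relP (by decide +kernel) (by decide +kernel) (CB_zero _ g)

theorem fi23t3_cb : CB 3 (Lc (2 ^ 10 - 1) g) 1 :=
  cb_step' (V := fi23t3) (m0 := 1) hchk (by decide +kernel) fi23t3_E fi23t3_R (by decide +kernel)
    relP (by decide +kernel) (by decide +kernel) (CB_zero _ g)

theorem fi23t5_cb : CB 5 (Lc (2 ^ 10 - 1) g) 1 :=
  cb_step' (V := fi23t5) (m0 := 1) hchk (by decide +kernel) fi23t5_E fi23t5_R (by decide +kernel)
    relP (by decide +kernel) (by decide +kernel) (CB_zero _ g)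

theorem bound (Γ : Type) [Group Γ] [Finite Γ] (σ : Γ →* G0) (hσ : IsStemExtension σ) :
    Nat.card σ.ker ≤ 1 :=
  card_ker_dvd (B := 23) [(2, 0), (3, 0), (5, 0)] hcard (by decide +kernel) (by decide +kernel) (by norm_num) (by
    simp only [List.mem_cons, List.not_mem_nil, or_false, forall_eq_or_imp, forall_eq]
    exact ⟨⟨PB_of_CB_top (e := 1) (by norm_num) fi23t2_cb htop (by decide +kernel), by decide⟩,
      ⟨PB_of_CB_top (e := 1) (by norm_num) fi23t3_cb htop (by decide +kernel), by decide⟩,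
      ⟨PB_of_CB_top (e := 1) (by norm_num) fi23t5_cb htop (by decide +kernel), by decide⟩⟩) Γ σ hσ

theorem mult : HasCyclicSchurMultiplier G0 1 := trivial_of_le bound

end Cfsg.Agent.H25.Fi23
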