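import Mathlib

set_option autoImplicit false

namespace Cfsg.Agent.H1.G2
open Subgroup

theorem pN_core {G : Type*} [Group G] [Finite G] (S : Sylow 2 G) {M P Q : Subgroup G} {t : G} (t1 : t ≠ 1)
    (hc : ∀ g : G, g * t = t * g) (sqt : ∀ s ∈ M, s * s = t → s ∈ P ∨ s ∈ Q)
    (pr : ∀ a ∈ P, ∀ b ∈ Q, a * a = t → b * b = t → a * b * (a * b) = 1 ∧ a * b ≠ 1 ∧ a * b ≠ t)
    (iP : ∀ s ∈ P, s * s = 1 → s = 1 ∨ s = t) (iQ : ∀ s ∈ Q, s * s = 1 → s = 1 ∨ s = t)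
    (lP : P ≤ M) (lQ : Q ≤ M) (tP : t ∈ P) (tQ : t ∈ Q)
    (gP : ∀ H : Subgroup G, (∀ s ∈ P, s * s = t → s ∈ H) → P ≤ H)
    (gQ : ∀ H : Subgroup G, (∀ s ∈ Q, s * s = t → s ∈ H) → Q ≤ H)
    (nM : ∀ s ∈ (S : Subgroup G), ∀ q ∈ M, s * q * s⁻¹ ∈ M)
    (nQ : ∀ s ∈ (S : Subgroup G), ∀ q ∈ Q, s * q * s⁻¹ ∈ Q)
    {n q : G} (hn : ∀ s ∈ M, n * s * n⁻¹ ∈ M) (hq : q ∈ Q) : n * q * n⁻¹ ∈ Q := by
  have ct : ∀ g : G, g * t * g⁻¹ = t := fun g => by rw [hc, mul_inv_cancel_right]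
  have cj : ∀ g a : G, (g * a * g⁻¹ = 1 ∨ g * a * g⁻¹ = t) ↔ (a = 1 ∨ a = t) := fun g a => by
    rw [conj_eq_one_iff, ← ct g, mul_left_inj, mul_right_inj, ct]
  have A : ∀ g : G, (∀ s ∈ M, g * s * g⁻¹ ∈ M) → ∀ R : Subgroup G, R ≤ M → (∀ s ∈ R, s * s = 1 → s = 1 ∨ s = t) →
      (∀ H : Subgroup G, (∀ s ∈ R, s * s = t → s ∈ H) → R ≤ H) →
      (∀ r ∈ R, g * r * g⁻¹ ∈ P) ∨ ∀ r ∈ R, g * r * g⁻¹ ∈ Q := fun g hg R lR iR gR => by
    have sq : ∀ s : G, s * s = t → g * s * g⁻¹ * (g * s * g⁻¹) = t := fun s e => by rw [conj_mul, e, ct]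
    by_cases h : ∀ s ∈ R, s * s = t → g * s * g⁻¹ ∈ P
    · exact .inl fun r hr => gR (P.comap (MulAut.conj g).toMonoidHom) h hr
    push Not at h
    obtain ⟨b, hb, eb, nb⟩ := h
    refine .inr fun r hr => gR (Q.comap (MulAut.conj g).toMonoidHom) (fun a ha ea => ?_) hr
    refine (sqt _ (hg a (lR ha)) (sq a ea)).resolve_left fun h => ?_
    obtain ⟨h1, h2, h3⟩ := pr _ h _ ((sqt _ (hg b (lR hb)) (sq b eb)).resolve_left nb) (sq a ea) (sq b eb)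
    rw [conj_mul] at h1 h2 h3
    rw [conj_mul, conj_eq_one_iff] at h1
    exact ((cj g _).2 (iR _ (mul_mem ha hb) h1)).elim h2 h3
  have ex : ∀ R : Subgroup G, t ∈ R → (∀ H : Subgroup G, (∀ s ∈ R, s * s = t → s ∈ H) → R ≤ H) →
      ∃ a ∈ R, a * a = t := fun R tR gR => by
    by_contra! h
    exact t1 (gR ⊥ (fun s hs e => (h s hs e).elim) tR)
  obtain ⟨a, ha, ea⟩ := ex P tP gP
  obtain ⟨b, hb, eb⟩ := ex Q tQ gQ
  have B : ∀ g : G, ¬ (g * a * g⁻¹ ∈ P ∧ g * b * g⁻¹ ∈ P) := fun g h => by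
    obtain ⟨h1, h2, h3⟩ := pr a ha b hb ea eb
    have := iP _ (mul_mem h.1 h.2) (by rw [conj_mul, conj_mul, h1, mul_one, mul_inv_cancel])
    rw [conj_mul, cj] at this
    exact this.elim h2 h3
  let N := normalizer (M : Set G)
  have hN : ∀ g ∈ N, ∀ s ∈ M, g * s * g⁻¹ ∈ M := fun g hg s hs => (mem_normalizer_iff.1 hg s).1 hs
  by_contra hnq
  have h1 := (A n hn Q lQ iQ gQ).resolve_right fun h => hnq (h q hq)
  have h2 : (normalizer (Q : Set G)).relIndex N = 2 := by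
    refine index_eq_two_iff_exists_notMem_and.2 ⟨⟨n, mem_normalizer_fintype hn⟩,
      fun h => hnq ((mem_normalizer_iff.1 h q).1 hq), fun g => ?_⟩
    refine (A g (hN g g.2) Q lQ iQ gQ).imp (fun h => ?_) fun h => mem_normalizer_fintype h
    have h3 := (A g (hN g g.2) P lP iP gP).resolve_left fun e => B g ⟨e a ha, h b hb⟩
    refine mem_normalizer_fintype fun r hr => ?_
    have := h3 _ (h1 r hr)
    simpa [mul_assoc] using this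
  have h3 : (S : Subgroup G) ≤ normalizer (Q : Set G) ⊓ N := fun s hs =>
    ⟨mem_normalizer_fintype (nQ s hs), mem_normalizer_fintype (nM s hs)⟩
  rw [← inf_relIndex_right] at h2
  exact S.not_dvd_index ((h2 ▸ relIndex_dvd_index_of_le inf_le_right).trans (index_dvd_of_le h3))

end Cfsg.Agent.H1.G2
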