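import Mathlib
import Cfsg.Agent.H25.I2A

set_option maxRecDepth 100000
set_option linter.all false

namespace Cfsg.Agent.H25.I1
open Cfsg Cfsg.Agent.H25 Cfsg.Agent.H25.Leech Cfsg.Agent.H25.CenB

noncomputable def φ (i : ℕ) : Bool := Nat.beq ((prep (gd 0 I2.MK 8)).act (mv i)) (mv i)
noncomputable def fc (lo nb : ℕ) : ℕ :=
  forceT (prep (gd 0 I2.MK 8)) fun t => cnt2 (fun i => Nat.beq (t.act (mv i)) (mv i)) lo nb
theorem fc_eq {lo n : ℕ} (h : fc lo 128 = n) : ((Finset.Ico lo (lo + 8192)).filter fun i => φ i = true).card = n := by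
  rw [fc, forceT_eq, cnt2_eq] at h
  exact h

theorem f0 : fc 0 128 = 240 := by decide +kernel
theorem f1 : fc 8192 128 = 0 := by decide +kernel
theorem f2 : fc 16384 128 = 0 := by decide +kernel
theorem f3 : fc 24576 128 = 0 := by decide +kernel
theorem f4 : fc 32768 128 = 0 := by decide +kernel
theorem f5 : fc 40960 128 = 0 := by decide +kernel
theorem f6 : fc 49152 128 = 0 := by decide +kernel
theorem f7 : fc 57344 128 = 0 := by decide +kernel

end Cfsg.Agent.H25.I1
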