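import Mathlib
import Cfsg.Agent.H25.I1A

set_option maxRecDepth 100000
set_option linter.all false

namespace Cfsg.Agent.H25.I1
open Cfsg Cfsg.Agent.H25 Cfsg.Agent.H25.Leech Cfsg.Agent.H25.CenB

theorem f8 : fc 65536 128 = 0 := by decide +kernel
theorem f9 : fc 73728 128 = 0 := by decide +kernel
theorem f10 : fc 81920 128 = 0 := by decide +kernel
theorem f11 : fc 90112 128 = 0 := by decide +kernel
theorem f12 : fc 98304 128 = 0 := by decide +kernel
theorem f13 : fc 106496 128 = 0 := by decide +kernel
theorem f14 : fc 114688 128 = 0 := by decide +kernel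
theorem f15 : fc 122880 128 = 0 := by decide +kernel

end Cfsg.Agent.H25.I1
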