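import Mathlib
import Cfsg.Agent.H25.I1A

set_option maxRecDepth 100000
set_option linter.all false

namespace Cfsg.Agent.H25.I1
open Cfsg Cfsg.Agent.H25 Cfsg.Agent.H25.Leech Cfsg.Agent.H25.CenB

theorem f16 : fc 131072 128 = 0 := by decide +kernel
theorem f17 : fc 139264 128 = 0 := by decide +kernel
theorem f18 : fc 147456 128 = 0 := by decide +kernel
theorem f19 : fc 155648 128 = 0 := by decide +kernel
theorem f20 : fc 163840 128 = 0 := by decide +kernel
theorem f21 : fc 172032 128 = 0 := by decide +kernel
theorem f22 : fc 180224 128 = 0 := by decide +kernel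
theorem f23 : fc 188416 128 = 0 := by decide +kernel

end Cfsg.Agent.H25.I1
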