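import Mathlib
import Cfsg.Agent.H25.O8T
import Cfsg.Agent.S0817

/-! Subgroups of order `3` of `PΩ₈⁺(3)`. -/

set_option maxRecDepth 100000
set_option linter.all false

namespace Cfsg.Agent.H25.O8
open Cfsg Cfsg.Agent.H25 Cfsg.Agent.H25.PcT Cfsg.Agent.H25.O8Z
open scoped Pointwise

noncomputable def r (i : Fin 13) : Om := ev x (gd [] R i)
noncomputable def Y (i : Fin 13) : Subgroup L := Subgroup.zpowers (π (r i))

theorem R_ok : ∀ i : Fin 13, (∀ a ∈ gd [] R i, a < 12) ∧ T.chk B (pw (gd [] R i) 3) = true ∧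
    neqv T B (gd [] R i) [] = true := by decide +kernel

theorem R_sm (i : Fin 13) : Sm T (gd [] R i) := fun a ha => ((R_ok i).1 a ha).trans (by decide)
theorem r3 (i : Fin 13) : r i ^ 3 = 1 := by rw [r, ← ev_pw]; exact hAM.chk htb.2 _ (R_ok i).2.1

theorem cen_one {z : Om} (hz : z ∈ Subgroup.center Om) (h : z ^ 3 = 1) : z = 1 := by
  rw [pow_succ, cen_sq hz, one_mul] at h; exact h

theorem Y_card (i : Fin 13) : Nat.card (Y i) = 3 := by
  rw [Y, Nat.card_zpowers]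
  refine orderOf_eq_prime (by rw [← map_pow, r3, map_one]) fun h => ?_
  exact hAM.neqv hinj htb.2.1 (R_sm i) Sm.nil (R_ok i).2.2
    (cen_one ((QuotientGroup.eq_one_iff _).1 h) (r3 i))

noncomputable def fc (i : Fin 13) : ℕ := gd 0 [nat_lit 216, nat_lit 0, nat_lit 216, nat_lit 0, nat_lit 0, nat_lit 18, nat_lit 0, nat_lit 270, nat_lit 0, nat_lit 0, nat_lit 54, nat_lit 54, nat_lit 36] i

theorem fc_le {i j : Fin 13} (h : Cj (Y i) (Y j)) : fc i ≤ fc j := by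
  obtain ⟨g, hg⟩ := h
  obtain ⟨c, rfl⟩ := QuotientGroup.mk'_surjective _ g
  rw [Y, smul_zp] at hg
  have hm : π (r j) ∈ Y j := Subgroup.mem_zpowers _
  rw [← hg] at hm
  obtain ⟨k, hk⟩ := mem_powers_iff_mem_zpowers.2 hm
  have e : π (c * r i ^ k * c⁻¹) = π (r j) := by
    rw [← hk, map_mul, map_mul, map_pow, map_inv]; exact (conj_pow ..).symm
  obtain ⟨z, hz, e2⟩ := (QuotientGroup.mk'_eq_mk' _).1 e
  have e3 := r3 j
  rw [← e2, Commute.mul_pow (Subgroup.mem_center_iff.1 hz _), conj_pow, ← pow_mul, mul_comm k, pow_mul, r3,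
    one_pow, mul_one, mul_inv_cancel, one_mul] at e3
  rw [cen_one hz e3, mul_one] at e2
  rw [fc, fc, ← fx i i.2, ← fx j j.2]
  exact fixc_le hAM hinj htb.1 (fun a ha => by
    have : (2 ^ 19 - 1).testBit a = true := ha
    rw [Nat.testBit_two_pow_sub_one] at this
    exact of_decide_eq_true this) (R_sm i) (R_sm j) e2

def tb (t : ℕ) (k : ℕ) (i : Fin 13) : Fin 13 := Fin.ofNat 13 (dg 4 t (13 * k + i))
def gt (a : Fin 3) : Fin 13 → Fin 13 := tb (nat_lit 0xcab8973516240cab9874561230c9ba864571320) a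
def sw : List (List ℕ) := [[nat_lit 2],
  [nat_lit 1],
  [nat_lit 3],
  [nat_lit 0],
  [nat_lit 5, nat_lit 5],
  [nat_lit 6],
  [nat_lit 4, nat_lit 4],
  [nat_lit 8],
  [nat_lit 9],
  [nat_lit 7],
  [nat_lit 10],
  [nat_lit 11]]
def cw : List (List (List ℕ)) := [[[],
  [],
  [],
  [],
  [nat_lit 0, nat_lit 10, nat_lit 11, nat_lit 17],
  [nat_lit 13, nat_lit 14, nat_lit 1, nat_lit 1, nat_lit 6, nat_lit 6, nat_lit 7, nat_lit 7, nat_lit 8, nat_lit 9, nat_lit 9, nat_lit 10, nat_lit 11, nat_lit 17],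
  [],
  [nat_lit 13, nat_lit 2, nat_lit 4, nat_lit 4, nat_lit 6, nat_lit 8, nat_lit 8, nat_lit 9, nat_lit 11, nat_lit 15],
  [],
  [nat_lit 1, nat_lit 1, nat_lit 3, nat_lit 5, nat_lit 5, nat_lit 6, nat_lit 7, nat_lit 7, nat_lit 8, nat_lit 8, nat_lit 9, nat_lit 9, nat_lit 17, nat_lit 2],
  [nat_lit 1, nat_lit 1, nat_lit 4, nat_lit 5, nat_lit 7, nat_lit 9, nat_lit 9, nat_lit 10, nat_lit 10, nat_lit 15],
  [nat_lit 0, nat_lit 0, nat_lit 3, nat_lit 3, nat_lit 4, nat_lit 5, nat_lit 7, nat_lit 8, nat_lit 9, nat_lit 10, nat_lit 10, nat_lit 11, nat_lit 15, nat_lit 17],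
  [nat_lit 12, nat_lit 13, nat_lit 14, nat_lit 0, nat_lit 0, nat_lit 1, nat_lit 2, nat_lit 2, nat_lit 4, nat_lit 7, nat_lit 7, nat_lit 10, nat_lit 10, nat_lit 11, nat_lit 11, nat_lit 15, nat_lit 17, nat_lit 0, nat_lit 2]],
 [[],
  [],
  [],
  [],
  [],
  [nat_lit 13, nat_lit 14, nat_lit 1, nat_lit 6, nat_lit 7, nat_lit 7, nat_lit 8, nat_lit 9, nat_lit 10, nat_lit 11, nat_lit 11, nat_lit 15],
  [],
  [nat_lit 14],
  [],
  [],
  [nat_lit 1, nat_lit 1, nat_lit 4, nat_lit 5, nat_lit 7, nat_lit 9, nat_lit 9, nat_lit 10, nat_lit 10, nat_lit 15],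
  [nat_lit 14, nat_lit 1, nat_lit 2, nat_lit 2, nat_lit 3, nat_lit 3, nat_lit 4, nat_lit 7, nat_lit 8, nat_lit 8, nat_lit 10, nat_lit 10, nat_lit 15],
  []],
 [[nat_lit 13],
  [nat_lit 12, nat_lit 14, nat_lit 0, nat_lit 0, nat_lit 1, nat_lit 1, nat_lit 2, nat_lit 2, nat_lit 3, nat_lit 3, nat_lit 4, nat_lit 4, nat_lit 5, nat_lit 5, nat_lit 6, nat_lit 7, nat_lit 7, nat_lit 8, nat_lit 8, nat_lit 9, nat_lit 10, nat_lit 10, nat_lit 15],
  [nat_lit 14],
  [nat_lit 13, nat_lit 2, nat_lit 4, nat_lit 4, nat_lit 6, nat_lit 8, nat_lit 8, nat_lit 9, nat_lit 11, nat_lit 15],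
  [nat_lit 12, nat_lit 13, nat_lit 0, nat_lit 3, nat_lit 3, nat_lit 4, nat_lit 8, nat_lit 9, nat_lit 11, nat_lit 17, nat_lit 2, nat_lit 2],
  [nat_lit 13, nat_lit 14],
  [nat_lit 1, nat_lit 3, nat_lit 4, nat_lit 4, nat_lit 6, nat_lit 7, nat_lit 7, nat_lit 11, nat_lit 11, nat_lit 15, nat_lit 0, nat_lit 0],
  [nat_lit 14],
  [nat_lit 0, nat_lit 0, nat_lit 3, nat_lit 3, nat_lit 4, nat_lit 6, nat_lit 6, nat_lit 7, nat_lit 8, nat_lit 9, nat_lit 9, nat_lit 15],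
  [nat_lit 12, nat_lit 14, nat_lit 1, nat_lit 1, nat_lit 2, nat_lit 2, nat_lit 3, nat_lit 3, nat_lit 5, nat_lit 6, nat_lit 8, nat_lit 8, nat_lit 9, nat_lit 10, nat_lit 10, nat_lit 11, nat_lit 15, nat_lit 0, nat_lit 0],
  [nat_lit 1, nat_lit 1, nat_lit 4, nat_lit 5, nat_lit 7, nat_lit 9, nat_lit 9, nat_lit 10, nat_lit 10, nat_lit 15],
  [nat_lit 1, nat_lit 2, nat_lit 2, nat_lit 3, nat_lit 3, nat_lit 4, nat_lit 7, nat_lit 8, nat_lit 8, nat_lit 10, nat_lit 10, nat_lit 15],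
  [nat_lit 12, nat_lit 1, nat_lit 1, nat_lit 2, nat_lit 3, nat_lit 3, nat_lit 4, nat_lit 4, nat_lit 5, nat_lit 8, nat_lit 8, nat_lit 9, nat_lit 10, nat_lit 11, nat_lit 17, nat_lit 18, nat_lit 2, nat_lit 2, nat_lit 3]]]

theorem real0 : Real Y (gt 0) := by
  obtain ⟨τ, hτ⟩ := tau fun K hK => by
    rw [eq_top_iff, ← htb.1, Lc_le]
    intro a ha
    have h2 : (2 ^ 19 - 1).testBit a = true := ha
    rw [Nat.testBit_two_pow_sub_one] at h2
    have h3 : a < 19 := of_decide_eq_true h2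
    rw [x_eq h3]
    exact ev_mem fun b hb => hK b (df_lt a h3 b hb)
  have h1 : ∀ a < 12, band (band (Nat.beq TD.n T0.n) (Nat.beq TD.w T0.w)) (band (band
      (T0.small ((gd [] df a).map sg)) (TD.small (gd [] sw a))) (allLin (fun i => force (Nat.shiftLeft 1
      (Nat.mul T0.w i)) fun e => Nat.beq (T0.red (T0.tr ((gd [] df a).map sg) e))
      (TD.red (TD.tr (gd [] sw a) e))) 0 T0.n)) = true ∧ (∀ b ∈ gd [] sw a, b < 19) ∧
      ∀ b ∈ (gd [] df a).map sg, b < 8 := by decide +kernel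
  have h2 : ∀ a < 12, τ (π (x a)) = π (locv sw x a) := fun a ha => by
    have e : ev x0 ((gd [] df a).map sg) = locv sw x a := Subtype.ext
      ((coe_ev fun b hb => mem0 b ((h1 a ha).2.2 b hb)).trans ((vm0.cross vmD (h1 a ha).1).trans
        (coe_ev fun b hb => memD b ((h1 a ha).2.1 b hb)).symm))
    rw [← e, x_eq (by omega), ev_map, map_ev π, map_ev π]
    exact (map_ev τ.toMonoidHom _ _).trans (ev_congr fun b hb => hτ b (df_lt a (by omega) b hb))
  have h3 : ∀ i : Fin 13, T.chk2 B (app (expand sw (gd [] R i)) (gd [] (gd [] cw 0) i))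
      (app (gd [] (gd [] cw 0) i) (gd [] R (gt 0 i))) = true := by decide +kernel
  refine ⟨τ, fun i => ?_⟩
  have e : τ (π (r i)) = π (ev x (expand sw (gd [] R i))) := by
    rw [r, ev_expand, map_ev π, map_ev π]
    exact (map_ev τ.toMonoidHom _ _).trans (ev_congr fun b hb => h2 b ((R_ok i).1 b hb))
  have e2 := hAM.chk2 htb.2 _ _ (h3 i)
  rw [app_eq, app_eq, ev_append, ev_append] at e2
  rw [Y, smul_zp, e]
  exact Cj.of_conj (π.map_isConj (isConj_iff.2 ⟨(ev x (gd [] (gd [] cw 0) i))⁻¹, by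
    rw [inv_inv, mul_assoc, e2, inv_mul_cancel_left]; rfl⟩))

theorem cj_aux {G : Type*} [Group G] {b c u v : G} (h : u * (b * c) = b * (c * v)) :
    c⁻¹ * (b⁻¹ * u * b) * c = v := by
  calc _ = c⁻¹ * b⁻¹ * (u * (b * c)) := by group
    _ = _ := by rw [h]; group

theorem realO (a : Fin 3) (b : ℕ) (h : ∀ i : Fin 13, (∀ c ∈ gd [] (gd [] cw a) i, c < 19) ∧
    TD.chk2 (app (gd [] R i) (b :: gd [] (gd [] cw a) i))
      (b :: app (gd [] (gd [] cw a) i) (gd [] R (gt a i))) = true) : Real Y (gt a) := by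
  refine ⟨cenQuot (MulAut.conjNormal (oD b)⁻¹ : MulAut Om), fun i => ?_⟩
  have e2 := vmD.chk2 _ _ (h i).2
  have m : ∀ j : Fin 13, (r j : O) = ev oD (gd [] R j) := fun j =>
    coe_ev fun c hc => memD c (((R_ok j).1 c hc).trans (by norm_num))
  rw [app_eq, app_eq, ev_append, ev_cons, ev_cons, ev_append, ← m, ← m,
    ← coe_ev fun c hc => memD c ((h i).1 c hc)] at e2
  rw [Y, smul_zp]
  refine Cj.of_conj (π.map_isConj (a := MulAut.conjNormal (oD b)⁻¹ (r i)) (isConj_iff.2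
    ⟨(ev x (gd [] (gd [] cw a) i))⁻¹, Subtype.ext ?_⟩))
  rw [inv_inv, Subgroup.coe_mul, Subgroup.coe_mul, MulAut.conjNormal_apply, inv_inv, Subgroup.coe_inv]
  exact cj_aux e2

theorem real : ∀ a, Real Y (gt a)
  | 0 => real0
  | 1 => realO 1 19 (by decide +kernel)
  | 2 => realO 2 20 (by decide +kernel)

theorem cls : Cls Y where
  card := Y_card
  sep i j h := by
    obtain ⟨τ, hτ⟩ := real0
    have k : ∀ {i j}, Cj (Y i) (Y j) → Cj (Y (gt 0 i)) (Y (gt 0 j)) := fun h =>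
      ((hτ _).symm.trans (h.map τ)).trans (hτ _)
    have e : ∀ {i j}, Cj (Y i) (Y j) → fc i = fc j := fun h => le_antisymm (fc_le h) (fc_le h.symm)
    have d : ∀ i j, fc i = fc j → fc (gt 0 i) = fc (gt 0 j) → fc (gt 0 (gt 0 i)) = fc (gt 0 (gt 0 j)) →
      i = j := by decide +kernel
    exact d i j (e h) (e (k h)) (e (k (k h)))
  cov X hX := by
    obtain ⟨y, hy⟩ := exists_prime_orderOf_dvd_card' (G := X) 3 (by rw [hX])
    rw [← Subgroup.orderOf_coe] at hy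
    have e : Subgroup.zpowers (y : L) = X := Subgroup.eq_of_le_of_card_ge (Subgroup.zpowers_le.2 y.2)
      (by rw [Nat.card_zpowers, hy, hX])
    obtain ⟨z, hz⟩ := QuotientGroup.mk'_surjective _ (y : L)
    have y3 : (y : L) ^ 3 = 1 := orderOf_dvd_iff_pow_eq_one.1 hy.dvd
    have h1 : (z ^ 3) ^ 2 = 1 := cen_sq ((QuotientGroup.eq_one_iff _).1
      (show π (z ^ 3) = 1 by rw [map_pow, hz, y3]))
    have h2 : π (z ^ 4) = y := by rw [map_pow, hz, pow_succ, y3, one_mul]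
    obtain ⟨k, hk, c⟩ := good (z ^ 4) (by
      rw [← pow_mul, show 4 * 3 = 3 * 2 * 2 by norm_num, pow_mul, pow_mul, h1, one_pow])
    rcases (show k < 13 ∨ k = 13 from Nat.lt_succ_iff_lt_or_eq.1 hk) with h | rfl
    · exact ⟨⟨k, h⟩, by rw [← e, ← h2]; exact Cj.of_conj (π.map_isConj c)⟩
    · rw [← h2, isConj_one_left.1 c, map_one, orderOf_one] at hy
      norm_num at hy

theorem cen_aux {G : Type*} [Group G] [IsSimpleGroup G] (h : ¬ (Nat.card G).Prime) :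
    Subgroup.center G = ⊥ := by
  refine (Subgroup.Normal.eq_bot_or_eq_top inferInstance).resolve_right fun e => h ?_
  letI := Group.commGroupOfCenterEqTop e
  exact IsSimpleGroup.prime_card

theorem cenL : Subgroup.center L = ⊥ :=
  haveI : IsSimpleGroup L := S0296.result 4 le_rfl
  cen_aux (by rw [cardL]; norm_num)

theorem autL : Nat.card (MulAut L) = 24 * Nat.card L := by
  rw [S0817.result (F := F) 3 1 le_rfl (by simp) 4 le_rfl, if_pos rfl, if_neg (by norm_num),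
    if_pos (by decide)]

def FF (k : Fin 24) : Fin 13 → Fin 13 := tb (nat_lit 0xc98ab24531760cb89a16523470c8a9b32547610c89ab23546710c89ba21564730c98ba26513740ca89b34521670ca98b43526170c9a8b42537160c9b8a62517340ca8b937512640c8b9a12567430c8ba913576420cb8a917532460cb98a61524370cba8971534260cb9a867542310c8ab931574620c9ab846573120ca9b847562130cab8973516240cab9874561230c9ba864571320cba9876543210) k
def WW : List (List (Fin 3)) := [[], [0], [1], [2], [0, 0], [1, 0], [2, 0], [0, 1], [2, 1], [0, 2], [2, 0, 0], [2, 1, 0], [0, 2, 0], [2, 0, 1], [0, 2, 1], [0, 0, 2], [1, 0, 2], [2, 0, 2], [0, 2, 0, 0], [0, 2, 1, 0], [0, 0, 2, 0], [1, 0, 2, 0], [0, 2, 0, 1], [1, 0, 2, 0, 0]]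
def SS (c : Fin 4) (a : Fin 7) : Fin 13 := Fin.ofNat 13 (dg 4 (nat_lit 0xc985210cb85210ca85310c985410) (7 * c + a))

theorem FF_real (k : Fin 24) : Real Y (FF k) := by
  have h : ∀ k i, FF k i = wf gt (WW.getD k []) i := by decide +kernel
  rw [funext (h k)]; exact Real.wf real _

theorem FF_inj : ∀ k l, (∀ i, FF k i = FF l i) → k = l := by decide +kernel
theorem FF_dec : Dec FF SS := by unfold Dec; decide +kernel

end Cfsg.Agent.H25.O8
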