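import Mathlib

/-! Classes of subgroups under an overgroup: abstract part. -/

set_option linter.all false

namespace Cfsg.Agent.H25.O8Z
open scoped Pointwise

theorem graph_aut {L : Type*} [Group L] [IsSimpleGroup L] (I : Subgroup (L × L))
    (h1 : ∀ a, ∃ b, (a, b) ∈ I) (h2 : ∀ b, ∃ a, (a, b) ∈ I) (h3 : I ≠ ⊤) :
    ∃ e : MulAut L, ∀ p ∈ I, e p.1 = p.2 := by
  have s1 : Function.Surjective (Prod.fst ∘ I.subtype) := fun a => by
    obtain ⟨b, h⟩ := h1 a; exact ⟨⟨_, h⟩, rfl⟩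
  have s2 : Function.Surjective (Prod.snd ∘ I.subtype) := fun a => by
    obtain ⟨b, h⟩ := h2 a; exact ⟨⟨_, h⟩, rfl⟩
  have k1 : ∀ a, (a, 1) ∈ I → a = 1 := by
    rcases (Subgroup.normal_goursatFst s1).eq_bot_or_eq_top with h | h
    · intro a ha
      have := Subgroup.mem_goursatFst.2 ha
      rwa [h] at this
    · refine absurd (eq_top_iff.2 fun p _ => ?_) h3
      obtain ⟨a, ha⟩ := h2 p.2
      have : p.1 * a⁻¹ ∈ I.goursatFst := h ▸ Subgroup.mem_top _
      simpa using I.mul_mem (Subgroup.mem_goursatFst.1 this) ha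
  have k2 : ∀ a, (1, a) ∈ I → a = 1 := by
    rcases (Subgroup.normal_goursatSnd s2).eq_bot_or_eq_top with h | h
    · intro a ha
      have := Subgroup.mem_goursatSnd.2 ha
      rwa [h] at this
    · refine absurd (eq_top_iff.2 fun p _ => ?_) h3
      obtain ⟨a, ha⟩ := h1 p.1
      have : p.2 * a⁻¹ ∈ I.goursatSnd := h ▸ Subgroup.mem_top _
      simpa using I.mul_mem (Subgroup.mem_goursatSnd.1 this) ha
  obtain ⟨e, he⟩ := Subgroup.exists_mulEquiv_eq_graph (G := I) ⟨by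
      rintro ⟨⟨a, b⟩, h⟩ ⟨⟨c, d⟩, h'⟩ (e : a = c)
      subst e
      have := k2 (b * d⁻¹) (by simpa using I.mul_mem h (I.inv_mem h'))
      simpa using eq_of_mul_inv_eq_one this, s1⟩ ⟨by
      rintro ⟨⟨a, b⟩, h⟩ ⟨⟨c, d⟩, h'⟩ (e : b = d)
      subst e
      have := k1 (a * c⁻¹) (by simpa using I.mul_mem h (I.inv_mem h'))
      simpa using eq_of_mul_inv_eq_one this, s2⟩
  exact ⟨e, fun p hp => by rw [he] at hp; exact hp⟩

variable {L : Type*} [Group L]

def Cj (X X' : Subgroup L) : Prop := ∃ g : L, MulAut.conj g • X = X'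

theorem Cj.refl (X : Subgroup L) : Cj X X := ⟨1, by simp⟩
theorem Cj.symm {X X' : Subgroup L} (h : Cj X X') : Cj X' X := by
  obtain ⟨g, rfl⟩ := h; exact ⟨g⁻¹, by simp⟩
theorem Cj.trans {X X' X'' : Subgroup L} (h : Cj X X') (h' : Cj X' X'') : Cj X X'' := by
  obtain ⟨g, rfl⟩ := h; obtain ⟨k, rfl⟩ := h'; exact ⟨k * g, by rw [map_mul, mul_smul]⟩
theorem Cj.map {X X' : Subgroup L} (h : Cj X X') (α : MulAut L) : Cj (α • X) (α • X') := by
  obtain ⟨g, rfl⟩ := h
  exact ⟨α g, by rw [← mul_smul, ← mul_smul]; congr 1; ext x; simp⟩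

theorem smul_zp (α : MulAut L) (x : L) : α • Subgroup.zpowers x = Subgroup.zpowers (α x) :=
  MonoidHom.map_zpowers _ _

theorem Cj.of_conj {x y : L} (h : IsConj x y) : Cj (Subgroup.zpowers x) (Subgroup.zpowers y) := by
  obtain ⟨c, rfl⟩ := isConj_iff.1 h
  exact ⟨c, smul_zp _ _⟩

theorem card_smul (α : MulAut L) (X : Subgroup L) : Nat.card (α • X : Subgroup L) = Nat.card X :=
  (Nat.card_congr (Subgroup.equivSMul α X).toEquiv).symm

structure Cls {n : ℕ} (Y : Fin n → Subgroup L) : Prop where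
  card : ∀ i, Nat.card (Y i) = 3
  sep : ∀ i j, Cj (Y i) (Y j) → i = j
  cov : ∀ X : Subgroup L, Nat.card X = 3 → ∃ i, Cj X (Y i)

variable {Y : Fin 13 → Subgroup L}

open Classical in
noncomputable def ka (Y : Fin 13 → Subgroup L) (X : Subgroup L) : Fin 13 :=
  if h : ∃ i, Cj X (Y i) then h.choose else 0

theorem Cls.ka_spec (h : Cls Y) {X : Subgroup L} (hX : Nat.card X = 3) : Cj X (Y (ka Y X)) := by
  rw [ka, dif_pos (h.cov X hX)]; exact (h.cov X hX).choose_spec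

theorem Cls.ka_eq (h : Cls Y) {X : Subgroup L} {i : Fin 13} (hX : Cj X (Y i)) : ka Y X = i := by
  have : ∃ i, Cj X (Y i) := ⟨i, hX⟩
  rw [ka, dif_pos this]; exact h.sep _ _ (this.choose_spec.symm.trans hX)

theorem Cls.ka_map (h : Cls Y) {X : Subgroup L} (hX : Nat.card X = 3) (α : MulAut L) :
    ka Y (α • X) = ka Y (α • Y (ka Y X)) :=
  h.ka_eq (((h.ka_spec hX).map α).trans (h.ka_spec (by rw [card_smul, h.card])))

noncomputable def Cls.phi (h : Cls Y) : MulAut L →* Equiv.Perm (Fin 13) :=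
  MonoidHom.toHomPerm
    { toFun := fun α i => ka Y (α • Y i)
      map_one' := funext fun i => h.ka_eq (by rw [one_smul]; exact Cj.refl _)
      map_mul' := fun α β => funext fun i => by
        show ka Y ((α * β) • Y i) = ka Y (α • Y (ka Y (β • Y i)))
        rw [mul_smul, h.ka_map (by rw [card_smul, h.card])] }

theorem Cls.phi_apply (h : Cls Y) (α : MulAut L) (i : Fin 13) : h.phi α i = ka Y (α • Y i) := by
  rw [Cls.phi, MonoidHom.toHomPerm_apply_apply]; rfl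

theorem Cls.phi_eq (h : Cls Y) {α : MulAut L} {i j : Fin 13} (e : Cj (α • Y i) (Y j)) : h.phi α i = j :=
  (h.phi_apply α i).trans (h.ka_eq e)

def Real (Y : Fin 13 → Subgroup L) (f : Fin 13 → Fin 13) : Prop :=
  ∃ α : MulAut L, ∀ i, Cj (α • Y i) (Y (f i))

theorem Real.id : Real Y id := ⟨1, fun i => by rw [one_smul]; exact Cj.refl _⟩
theorem Real.comp {f g : Fin 13 → Fin 13} (hf : Real Y f) (hg : Real Y g) : Real Y (f ∘ g) := by
  obtain ⟨α, h1⟩ := hf; obtain ⟨β, h2⟩ := hg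
  exact ⟨α * β, fun i => by rw [mul_smul]; exact ((h2 i).map α).trans (h1 _)⟩

def wf (t : Fin 3 → Fin 13 → Fin 13) (w : List (Fin 3)) : Fin 13 → Fin 13 := w.foldr (fun a f => t a ∘ f) id

theorem Real.wf {t : Fin 3 → Fin 13 → Fin 13} (h : ∀ a, Real Y (t a)) (w : List (Fin 3)) : Real Y (wf t w) := by
  induction w with
  | nil => exact Real.id
  | cons a w ih => exact (h a).comp ih

def kk {M : Type*} [Monoid M] (a b : M) (t : Fin 6) : M := a ^ (t.val % 3) * b ^ (t.val / 3)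

def kf (a b : Fin 13 → Fin 13) (t : Fin 6) (i : Fin 13) : Fin 13 := a^[t.val % 3] (b^[t.val / 3] i)

theorem kk_apply (a b : Equiv.Perm (Fin 13)) (t : Fin 6) (i : Fin 13) : kk a b t i = kf a b t i := by
  simp [kk, kf, Equiv.Perm.iterate_eq_pow]

def Dec (F : Fin 24 → Fin 13 → Fin 13) (S : Fin 4 → Fin 7 → Fin 13) : Prop :=
  ∀ k l, (∀ i, F k (F k (F k i)) = i) → (∃ i, F k i ≠ i) → (∀ i, F l (F l i) = i) → (∃ i, F l i ≠ i) →
    (∀ s t, (∀ i, kf (F k) (F l) s i = kf (F k) (F l) t i) → s = t) ∧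
    ((∃ t, ∀ i, F l (F k (F l i)) = kf (F k) (F l) t i) → ∃ c,
      (∀ a b t, kf (F k) (F l) t (S c a) = S c b → a = b) ∧ ∀ i, ∃ a t, kf (F k) (F l) t i = S c a)

theorem Cls.range [Finite L] (h : Cls Y) (hZ : Subgroup.center L = ⊥)
    (hA : Nat.card (MulAut L) = 24 * Nat.card L) {F : Fin 24 → Fin 13 → Fin 13}
    (hF : ∀ k, Real Y (F k)) (hi : ∀ k l, (∀ i, F k i = F l i) → k = l) :
    (∀ α, ∃ k, ⇑(h.phi α) = F k) ∧ ∀ α, h.phi α = 1 → ∃ g, MulAut.conj g = α := by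
  choose al hal using hF
  have e1 : ∀ k, ⇑(h.phi (al k)) = F k := fun k => funext fun i => h.phi_eq (hal k i)
  have hinj : Function.Injective (MulAut.conj : L →* MulAut L) := by
    rw [← MonoidHom.ker_eq_bot_iff, eq_bot_iff, ← hZ]
    intro g hg
    rw [Subgroup.mem_center_iff]
    intro x
    have := congrArg (fun α : MulAut L => α x) (MonoidHom.mem_ker.1 hg)
    exact (mul_inv_eq_iff_eq_mul.1 this).symm
  have c1 : Nat.card (MulAut.conj : L →* MulAut L).range = Nat.card L :=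
    (Nat.card_congr (MonoidHom.ofInjective hinj).toEquiv).symm
  have hle : (MulAut.conj : L →* MulAut L).range ≤ h.phi.ker := by
    rintro _ ⟨g, rfl⟩
    exact Equiv.ext fun i => h.phi_eq ⟨g⁻¹, by simp⟩
  let f : Fin 24 → h.phi.range := fun k => ⟨_, al k, rfl⟩
  have hf : Function.Injective f := fun k l e => hi k l fun i => by
    rw [← e1, ← e1]; exact congrArg (fun p : h.phi.range => p.1 i) e
  have c2 := Nat.card_le_card_of_injective f hf
  have c3 := Subgroup.card_mul_index h.phi.ker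
  rw [Subgroup.index_ker] at c3
  have c4 := Subgroup.card_le_of_le hle
  have c5 : 0 < Nat.card L := Nat.card_pos
  rw [Nat.card_eq_fintype_card (α := Fin 24), Fintype.card_fin] at c2
  rw [c1] at c4
  have c6 : Nat.card h.phi.range ≤ 24 := by nlinarith
  have c7 : Nat.card h.phi.ker ≤ Nat.card L := by nlinarith
  refine ⟨fun α => ?_, fun α hα => ?_⟩
  · obtain ⟨k, hk⟩ := (hf.bijective_of_nat_card_le (by simpa using c6)).2 ⟨_, α, rfl⟩
    exact ⟨k, by rw [← e1]; exact congrArg (fun p : h.phi.range => ⇑p.1) hk.symm⟩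
  · have := Subgroup.eq_of_le_of_card_ge hle (c1 ▸ c7)
    rw [← MonoidHom.mem_ker, ← this] at hα
    exact hα

theorem orbs {H : Subgroup (Equiv.Perm (Fin 13))} (hH : Nat.card H = 6) {F : Fin 24 → Fin 13 → Fin 13}
    {S : Fin 4 → Fin 7 → Fin 13} (hF : ∀ p ∈ H, ∃ k, ⇑p = F k) (hD : Dec F S) :
    ∃ s : Fin 7 → Fin 13, (∀ a b, ∀ p ∈ H, p (s a) = s b → a = b) ∧ ∀ i, ∃ a, ∃ p ∈ H, p i = s a := by
  haveI : Fact (Nat.Prime 3) := ⟨by norm_num⟩
  obtain ⟨a, ha⟩ := exists_prime_orderOf_dvd_card' (G := H) 3 (by rw [hH]; norm_num)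
  obtain ⟨b, hb⟩ := exists_prime_orderOf_dvd_card' (G := H) 2 (by rw [hH]; norm_num)
  obtain ⟨k, hk⟩ := hF a a.2
  obtain ⟨l, hl⟩ := hF b b.2
  have ne : ∀ (x : H) (p : ℕ), orderOf x = p → p ≠ 1 → ∃ i, x.1 i ≠ i := fun x p h1 h2 => by
    by_contra hc
    push Not at hc
    exact h2 (by rw [← h1, show x = 1 from Subtype.ext (Equiv.ext hc), orderOf_one])
  have a3 := congrArg Subtype.val (ha ▸ pow_orderOf_eq_one a)
  have b2 := congrArg Subtype.val (hb ▸ pow_orderOf_eq_one b)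
  obtain ⟨d1, d2⟩ := hD k l (fun i => by rw [← hk]; exact congrArg (fun p : Equiv.Perm _ => p i) a3)
    (hk ▸ ne a 3 ha (by norm_num)) (fun i => by rw [← hl]; exact congrArg (fun p : Equiv.Perm _ => p i) b2)
    (hl ▸ ne b 2 hb (by norm_num))
  rw [← hk, ← hl] at d1 d2
  have e : ∀ t i, (kk a b t).1 i = kf a.1 b.1 t i := fun t i => by rw [← kk_apply]; simp [kk]
  have hs : Function.Surjective (kk a b) := (Function.Injective.bijective_of_nat_card_le
    (fun s t h => d1 s t fun i => by rw [← e, ← e, h]) (by simp [hH])).2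
  obtain ⟨c, h1, h2⟩ := d2 (by
    obtain ⟨t, ht⟩ := hs (b * a * b)
    exact ⟨t, fun i => by rw [← e, ht]; rfl⟩)
  refine ⟨S c, fun x y p hp h => ?_, fun i => ?_⟩
  · obtain ⟨t, ht⟩ := hs ⟨p, hp⟩
    exact h1 x y t (by rw [← e, ht]; exact h)
  · obtain ⟨x, t, ht⟩ := h2 i
    exact ⟨x, _, (kk a b t).2, by rw [e, ht]⟩

theorem overG {G : Type*} [Group G] [Finite G] (N : Subgroup G) [N.Normal] (e : N ≃* L)
    (hC : Subgroup.centralizer (N : Set G) ≤ N) (hq : Nat.card (G ⧸ N) = 6) (h : Cls Y)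
    (hZ : Subgroup.center L = ⊥) (hA : Nat.card (MulAut L) = 24 * Nat.card L)
    {F : Fin 24 → Fin 13 → Fin 13} {S : Fin 4 → Fin 7 → Fin 13}
    (hF : ∀ k, Real Y (F k)) (hi : ∀ k l, (∀ i, F k i = F l i) → k = l) (hD : Dec F S) :
    ∃ Y : Fin 7 → Subgroup G, (∀ i, Y i ≤ N ∧ Nat.card (Y i) = 3) ∧ (∀ i j, Cj (Y i) (Y j) → i = j) ∧
      ∀ X : Subgroup G, X ≤ N → Nat.card X = 3 → ∃ i, Cj X (Y i) := by
  haveI : Finite L := Finite.of_equiv _ e.toEquiv
  obtain ⟨r1, r2⟩ := h.range hZ hA hF hi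
  let ψ : G →* MulAut L := (MulAut.congr e).toMonoidHom.comp MulAut.conjNormal
  have hψ : ∀ g (x : N), ψ g (e x) = e (MulAut.conjNormal g x) := fun g x => by simp [ψ]
  have hψ2 : ∀ l : N, ψ l = MulAut.conj (e l) := fun l => MulEquiv.ext fun y => by
    obtain ⟨x, rfl⟩ := e.surjective y
    rw [hψ, MulAut.conj_apply, ← map_inv, ← map_mul, ← map_mul]; rfl
  let ι : L →* G := N.subtype.comp e.symm.toMonoidHom
  have hι : Function.Injective ι := N.subtype_injective.comp e.symm.injective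
  have hι2 : ∀ g y, ι (ψ g y) = g * ι y * g⁻¹ := fun g y => by
    obtain ⟨x, rfl⟩ := e.surjective y
    rw [hψ]; simp [ι]
  have up : ∀ g (Z : Subgroup L), (ψ g • Z).map ι = MulAut.conj g • Z.map ι := fun g Z => by
    show (Z.map (ψ g).toMonoidHom).map ι = (Z.map ι).map (MulAut.conj g).toMonoidHom
    rw [Subgroup.map_map, Subgroup.map_map]
    exact congrArg (fun f => Z.map f) (MonoidHom.ext (hι2 g))
  have upc : ∀ Z Z' : Subgroup L, Cj Z Z' → Cj (Z.map ι) (Z'.map ι) := by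
    rintro Z _ ⟨y, rfl⟩
    obtain ⟨x, rfl⟩ := e.surjective y
    exact ⟨x, by rw [← hψ2, up]⟩
  have hc : ∀ Z : Subgroup L, Nat.card (Z.map ι) = Nat.card Z := fun Z =>
    (Nat.card_congr (Z.equivMapOfInjective ι hι).toEquiv).symm
  have hker : (h.phi.comp ψ).ker = N := by
    ext g
    constructor
    · intro hg
      obtain ⟨y, hy⟩ := r2 _ (MonoidHom.mem_ker.1 hg)
      obtain ⟨x, rfl⟩ := e.surjective y
      rw [← hψ2] at hy
      have : (x : G)⁻¹ * g ∈ Subgroup.centralizer (N : Set G) := fun z hz => by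
        have h1 := hι2 g (e ⟨z, hz⟩)
        rw [← hy, hι2] at h1
        have h2 : ι (e ⟨z, hz⟩) = z := by simp [ι]
        rw [h2] at h1
        calc z * ((x : G)⁻¹ * g) = (x : G)⁻¹ * (x * z * (x : G)⁻¹) * g := by group
          _ = _ := by rw [h1]; group
      simpa using N.mul_mem x.2 (hC this)
    · intro hg
      rw [MonoidHom.mem_ker, MonoidHom.comp_apply, hψ2 ⟨g, hg⟩]
      exact Equiv.ext fun i => h.phi_eq ⟨(e ⟨g, hg⟩)⁻¹, by simp⟩
  have hH : Nat.card (h.phi.comp ψ).range = 6 := by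
    rw [← Subgroup.index_ker, hker, Subgroup.index_eq_card, hq]
  obtain ⟨s, s1, s2⟩ := orbs hH (by rintro _ ⟨g, rfl⟩; exact r1 _) hD
  refine ⟨fun a => (Y (s a)).map ι, fun a => ⟨?_, by rw [hc, h.card]⟩, ?_, fun X hX h3 => ?_⟩
  · rintro _ ⟨y, -, rfl⟩; exact (e.symm y).2
  · rintro a b ⟨g, hg⟩
    rw [← up] at hg
    exact s1 a b _ ⟨g, rfl⟩ (h.phi_eq (by rw [Subgroup.map_injective hι hg]; exact Cj.refl _))
  · have hX2 : (X.comap ι).map ι = X := Subgroup.map_comap_eq_self fun x hx => ⟨e ⟨x, hX hx⟩, by simp [ι]⟩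
    have h4 : Nat.card (X.comap ι) = 3 := by rw [← hc, hX2, h3]
    obtain ⟨a, _, ⟨g, rfl⟩, hg⟩ := s2 (ka Y (X.comap ι))
    refine ⟨a, Cj.trans ⟨g, rfl⟩ ?_⟩
    rw [← hX2, ← up]
    refine upc _ _ ?_
    rw [← hg, show (h.phi.comp ψ) g = h.phi (ψ g) from rfl, h.phi_apply]
    have := h.ka_spec (X := ψ g • X.comap ι) (by rw [card_smul, h4])
    rwa [h.ka_map h4] at this

end Cfsg.Agent.H25.O8Z
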