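import Mathlib
import Cfsg.Agent.H25.PcT
import Cfsg.Agent.H25.X2
import Cfsg.Agent.H25.O8Z
import Cfsg.Agent.H11.Bridge2
import Cfsg.Agent.S0293
import Cfsg.Agent.S0296

/-! A matrix model of `Ω₈⁺(3)` and its triality automorphism. -/

set_option maxRecDepth 100000
set_option linter.all false

namespace Cfsg.Agent.H25.O8
open Cfsg Cfsg.Agent.H25 Matrix
open scoped commutatorElement

abbrev ι := Fin 4 ⊕ Fin 4
abbrev F := ZMod 3
abbrev O := ↥(isometryGroup F (quadFormPlus 4 F))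
abbrev Om := Omega F (quadFormPlus 4 F)
abbrev L := POmega F (quadFormPlus 4 F)

noncomputable instance dO : DistribMulAction O (ι → F) := inferInstance
noncomputable instance mO : MulAction O (ι → F) := dO.toMulAction
noncomputable instance sO : SMul O (ι → F) := mO.toSMul
noncomputable instance dOm : DistribMulAction Om (ι → F) := inferInstance
noncomputable instance mOm : MulAction Om (ι → F) := dOm.toMulAction
noncomputable instance sOm : SMul Om (ι → F) := mOm.toSMul

def ix : ι → ℕ := Sum.elim (fun i => i.val) (fun i => i.val + 4)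
def bas (i : ℕ) : ι → F := fun j => if ix j = i then 1 else 0

theorem ix_lt : ∀ j, ix j < 8 := by decide
theorem ix_surj : ∀ i < 8, ∃ j, ix j = i := by decide
theorem bas_ix : ∀ i, bas (ix i) = Pi.single i 1 := by decide

theorem bas_dec (m : ℕ) (j : ι) : vdec 8 7 bas m j = (dg 7 m (ix j) : F) := by
  simp [vdec, bas, Finset.sum_apply, ix_lt]

theorem basO : Bas O 3 8 7 bas where
  hp i := by funext j; simp; exact .inl rfl
  ind a b e j hj := by
    obtain ⟨j, rfl⟩ := ix_surj j hj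
    have := congrFun e j
    rw [bas_dec, bas_dec] at this
    exact (ZMod.natCast_eq_natCast_iff' _ _ _).1 this
  span y h := by
    refine Subtype.ext (Units.ext (Matrix.ext fun i j => ?_))
    have := congrFun (h _ (ix_lt j)) i
    rw [bas_ix] at this
    have e : (y.1.val.mulVec (Pi.single j 1)) i = _ := this
    simpa [Matrix.one_apply, Pi.single_apply] using e

theorem basOm : Bas Om 3 8 7 bas := ⟨basO.hp, basO.ind, fun y h => Subtype.ext (basO.span y.1 h)⟩

def J : Matrix ι ι F := fromBlocks 0 1 1 0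
theorem JJ : J * J = 1 := by decide +kernel

theorem JQ (v : ι → F) : v ⬝ᵥ J *ᵥ v = 2 * quadFormPlus 4 F v := by
  simp [J, quadFormPlus, dotProduct, mulVec, Fintype.sum_sum_type, Fin.sum_univ_four, Matrix.one_apply]
  ring

def mkO (C : Matrix ι ι F) (h : Cᵀ * J * C = J) : O :=
  have e : J * Cᵀ * J * C = 1 := by rw [mul_assoc J, mul_assoc J, h, JJ]
  ⟨⟨C, J * Cᵀ * J, mul_eq_one_comm.1 e, e⟩, fun u _ => by
    show quadFormPlus 4 F (C *ᵥ u) = quadFormPlus 4 F u
    refine mul_left_cancel₀ (show (2 : F) ≠ 0 by decide) ?_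
    rw [← JQ, ← JQ, mulVec_mulVec, ← vecMul_transpose, ← dotProduct_mulVec, mulVec_mulVec, ← mul_assoc, h]⟩

noncomputable def cm (r : List ℕ) : Matrix ι ι F := fun j i => (dg 7 (gd 0 r (ix i)) (ix j) : F)

def T0 : VT where
  p := nat_lit 3
  n := nat_lit 8
  w := nat_lit 7
  mk' := nat_lit 127
  G := nat_lit 11
  rows := [[nat_lit 1, nat_lit 129, nat_lit 16384, nat_lit 0x200000, nat_lit 0x1010000000, nat_lit 0x800000000, nat_lit 0x40000000000, nat_lit 0x2000000000000],
  [nat_lit 1, nat_lit 128, nat_lit 16512, nat_lit 0x200000, nat_lit 0x10000000, nat_lit 0x80800000000, nat_lit 0x40000000000, nat_lit 0x2000000000000],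
  [nat_lit 1, nat_lit 128, nat_lit 16384, nat_lit 0x204000, nat_lit 0x10000000, nat_lit 0x800000000, nat_lit 0x4040000000000, nat_lit 0x2000000000000],
  [nat_lit 1, nat_lit 128, nat_lit 16384, nat_lit 0x200000, nat_lit 0x10000000, nat_lit 0x800000000, nat_lit 0x40000400000, nat_lit 0x2000000004000],
  [nat_lit 129, nat_lit 128, nat_lit 16384, nat_lit 0x200000, nat_lit 0x10000000, nat_lit 0x820000000, nat_lit 0x40000000000, nat_lit 0x2000000000000],
  [nat_lit 1, nat_lit 16512, nat_lit 16384, nat_lit 0x200000, nat_lit 0x10000000, nat_lit 0x800000000, nat_lit 0x41000000000, nat_lit 0x2000000000000],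
  [nat_lit 1, nat_lit 128, nat_lit 0x204000, nat_lit 0x200000, nat_lit 0x10000000, nat_lit 0x800000000, nat_lit 0x40000000000, nat_lit 0x2080000000000],
  [nat_lit 1, nat_lit 128, nat_lit 0x2000000004000, nat_lit 0x80000200000, nat_lit 0x10000000, nat_lit 0x800000000, nat_lit 0x40000000000, nat_lit 0x2000000000000],
  [nat_lit 1, nat_lit 128, nat_lit 16384, nat_lit 0x2000000000000, nat_lit 0x10000000, nat_lit 0x800000000, nat_lit 0x40000000000, nat_lit 0x200000],
  [nat_lit 2, nat_lit 128, nat_lit 16384, nat_lit 0x200000, nat_lit 0x20000000, nat_lit 0x800000000, nat_lit 0x40000000000, nat_lit 0x2000000000000],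
  [nat_lit 1, nat_lit 128, nat_lit 32768, nat_lit 0x200000, nat_lit 0x10000000, nat_lit 0x800000000, nat_lit 0x80000000000, nat_lit 0x2000000000000]]


def TD : VT where
  p := nat_lit 3
  n := nat_lit 8
  w := nat_lit 7
  mk' := nat_lit 127
  G := nat_lit 21
  rows := [[nat_lit 1, nat_lit 129, nat_lit 16384, nat_lit 0x200000, nat_lit 0x1010000000, nat_lit 0x800000000, nat_lit 0x40000000000, nat_lit 0x2000000000000],
  [nat_lit 1, nat_lit 128, nat_lit 16512, nat_lit 0x200000, nat_lit 0x10000000, nat_lit 0x80800000000, nat_lit 0x40000000000, nat_lit 0x2000000000000],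
  [nat_lit 1, nat_lit 128, nat_lit 16384, nat_lit 0x204000, nat_lit 0x10000000, nat_lit 0x800000000, nat_lit 0x4040000000000, nat_lit 0x2000000000000],
  [nat_lit 1, nat_lit 128, nat_lit 16384, nat_lit 0x200000, nat_lit 0x10000000, nat_lit 0x800000000, nat_lit 0x40000400000, nat_lit 0x2000000004000],
  [nat_lit 1, nat_lit 128, nat_lit 16385, nat_lit 0x200000, nat_lit 0x80010000000, nat_lit 0x800000000, nat_lit 0x40000000000, nat_lit 0x2000000000000],
  [nat_lit 1, nat_lit 128, nat_lit 16384, nat_lit 0x200080, nat_lit 0x10000000, nat_lit 0x4000800000000, nat_lit 0x40000000000, nat_lit 0x2000000000000],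
  [nat_lit 1, nat_lit 128, nat_lit 16384, nat_lit 0x200000, nat_lit 0x10000000, nat_lit 0x800400000, nat_lit 0x40000000000, nat_lit 0x2000000000080],
  [nat_lit 1, nat_lit 128, nat_lit 16384, nat_lit 0x200001, nat_lit 0x4000010000000, nat_lit 0x800000000, nat_lit 0x40000000000, nat_lit 0x2000000000000],
  [nat_lit 1, nat_lit 128, nat_lit 16384, nat_lit 0x200000, nat_lit 0x10000000, nat_lit 0x800008000, nat_lit 0x40000000080, nat_lit 0x2000000000000],
  [nat_lit 1, nat_lit 128, nat_lit 16384, nat_lit 0x200000, nat_lit 0x10400000, nat_lit 0x800000000, nat_lit 0x40000000000, nat_lit 0x2000000000001],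
  [nat_lit 1, nat_lit 128, nat_lit 16384, nat_lit 0x200000, nat_lit 0x10008000, nat_lit 0x800000000, nat_lit 0x40000000001, nat_lit 0x2000000000000],
  [nat_lit 1, nat_lit 128, nat_lit 16384, nat_lit 0x200000, nat_lit 0x10000100, nat_lit 0x800000001, nat_lit 0x40000000000, nat_lit 0x2000000000000],
  [nat_lit 2, nat_lit 256, nat_lit 16384, nat_lit 0x200000, nat_lit 0x20000000, nat_lit 0x1000000000, nat_lit 0x40000000000, nat_lit 0x2000000000000],
  [nat_lit 1, nat_lit 256, nat_lit 32768, nat_lit 0x200000, nat_lit 0x10000000, nat_lit 0x1000000000, nat_lit 0x80000000000, nat_lit 0x2000000000000],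
  [nat_lit 1, nat_lit 128, nat_lit 32768, nat_lit 0x400000, nat_lit 0x10000000, nat_lit 0x800000000, nat_lit 0x80000000000, nat_lit 0x4000000000000],
  [nat_lit 256, nat_lit 1, nat_lit 16384, nat_lit 0x200000, nat_lit 0x1000000000, nat_lit 0x10000000, nat_lit 0x40000000000, nat_lit 0x2000000000000],
  [nat_lit 1, nat_lit 32768, nat_lit 128, nat_lit 0x200000, nat_lit 0x10000000, nat_lit 0x80000000000, nat_lit 0x800000000, nat_lit 0x2000000000000],
  [nat_lit 1, nat_lit 128, nat_lit 0x400000, nat_lit 16384, nat_lit 0x10000000, nat_lit 0x800000000, nat_lit 0x4000000000000, nat_lit 0x40000000000],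
  [nat_lit 1, nat_lit 128, nat_lit 0x4000000000000, nat_lit 0x40000000000, nat_lit 0x10000000, nat_lit 0x800000000, nat_lit 0x400000, nat_lit 16384],
  [nat_lit 1, nat_lit 128, nat_lit 16384, nat_lit 0x2000000000000, nat_lit 0x10000000, nat_lit 0x800000000, nat_lit 0x40000000000, nat_lit 0x200000],
  [nat_lit 2, nat_lit 128, nat_lit 16384, nat_lit 0x200000, nat_lit 0x20000000, nat_lit 0x800000000, nat_lit 0x40000000000, nat_lit 0x2000000000000]]


noncomputable def A0 (a : ℕ) : Matrix ι ι F := cm (gd [] T0.rows a)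

theorem A0_ok : ∀ a < 11, (A0 a)ᵀ * J * A0 a = J := by decide +kernel

noncomputable def o0 (a : ℕ) : O := if h : a < 11 then (mkO _ (A0_ok a h))⁻¹ else 1

theorem o0_act {a : ℕ} (h : a < 11) (v : ι → F) : (o0 a)⁻¹ • v = A0 a *ᵥ v := by
  rw [o0, dif_pos h, inv_inv]; rfl

theorem vm0 : VM T0 bas o0 := VM.of_rows (by decide +kernel) basO fun a ha i hi => by
  obtain ⟨i, rfl⟩ := ix_surj i hi
  funext j
  rw [o0_act ha, bas_ix]
  refine .trans ?_ (bas_dec _ j).symm
  simp [A0, cm]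

theorem mem0 : ∀ a < 8, o0 a ∈ Om := fun a ha => by
  have h : ∀ a < 8, ∃ t < 11, T0.chk2 [t, a] [a, a, t] = true := by decide +kernel
  obtain ⟨t, -, ht⟩ := h a ha
  have e := vm0.chk2 _ _ ht
  simp only [ev_cons, ev_nil, mul_one] at e
  have : o0 a = ⁅o0 t, o0 a⁆ := by rw [commutatorElement_def, e]; group
  rw [this]
  exact Subgroup.commutator_mem_commutator (Subgroup.mem_top _) (Subgroup.mem_top _)

def df : List (List ℕ) := [[nat_lit 0],
  [nat_lit 1],
  [nat_lit 2],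
  [nat_lit 3],
  [nat_lit 1, nat_lit 5, nat_lit 5, nat_lit 1, nat_lit 0, nat_lit 1, nat_lit 1, nat_lit 5, nat_lit 1, nat_lit 1],
  [nat_lit 2, nat_lit 6, nat_lit 6, nat_lit 2, nat_lit 1, nat_lit 2, nat_lit 2, nat_lit 6, nat_lit 2, nat_lit 2],
  [nat_lit 3, nat_lit 7, nat_lit 7, nat_lit 3, nat_lit 1, nat_lit 3, nat_lit 3, nat_lit 7, nat_lit 3, nat_lit 3],
  [nat_lit 2, nat_lit 6, nat_lit 6, nat_lit 2, nat_lit 1, nat_lit 5, nat_lit 5, nat_lit 1, nat_lit 0, nat_lit 1, nat_lit 1, nat_lit 5, nat_lit 1, nat_lit 1, nat_lit 2, nat_lit 2, nat_lit 6, nat_lit 2, nat_lit 2],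
  [nat_lit 3, nat_lit 3, nat_lit 7, nat_lit 3, nat_lit 3, nat_lit 2, nat_lit 6, nat_lit 6, nat_lit 2, nat_lit 1, nat_lit 2, nat_lit 2, nat_lit 6, nat_lit 2, nat_lit 2, nat_lit 3, nat_lit 7, nat_lit 7, nat_lit 3],
  [nat_lit 3, nat_lit 7, nat_lit 7, nat_lit 3, nat_lit 1, nat_lit 5, nat_lit 5, nat_lit 1, nat_lit 0, nat_lit 1, nat_lit 1, nat_lit 5, nat_lit 1, nat_lit 1, nat_lit 3, nat_lit 3, nat_lit 7, nat_lit 3, nat_lit 3],
  [nat_lit 3, nat_lit 3, nat_lit 7, nat_lit 3, nat_lit 3, nat_lit 2, nat_lit 6, nat_lit 6, nat_lit 2, nat_lit 1, nat_lit 5, nat_lit 5, nat_lit 1, nat_lit 0, nat_lit 1, nat_lit 1, nat_lit 5, nat_lit 1, nat_lit 1, nat_lit 2, nat_lit 2, nat_lit 6, nat_lit 2, nat_lit 2, nat_lit 3, nat_lit 7, nat_lit 7, nat_lit 3],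
  [nat_lit 1, nat_lit 1, nat_lit 5, nat_lit 1, nat_lit 1, nat_lit 3, nat_lit 3, nat_lit 7, nat_lit 3, nat_lit 3, nat_lit 2, nat_lit 6, nat_lit 6, nat_lit 2, nat_lit 1, nat_lit 5, nat_lit 5, nat_lit 1, nat_lit 0, nat_lit 1, nat_lit 1, nat_lit 5, nat_lit 1, nat_lit 1, nat_lit 2, nat_lit 2, nat_lit 6, nat_lit 2, nat_lit 2, nat_lit 3, nat_lit 7, nat_lit 7, nat_lit 3, nat_lit 1, nat_lit 5, nat_lit 5, nat_lit 1],
  [nat_lit 0, nat_lit 4, nat_lit 4, nat_lit 0, nat_lit 0, nat_lit 4, nat_lit 4, nat_lit 0],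
  [nat_lit 1, nat_lit 5, nat_lit 5, nat_lit 1, nat_lit 1, nat_lit 5, nat_lit 5, nat_lit 1],
  [nat_lit 2, nat_lit 6, nat_lit 6, nat_lit 2, nat_lit 2, nat_lit 6, nat_lit 6, nat_lit 2],
  [nat_lit 0, nat_lit 4, nat_lit 4, nat_lit 0],
  [nat_lit 1, nat_lit 5, nat_lit 5, nat_lit 1],
  [nat_lit 2, nat_lit 6, nat_lit 6, nat_lit 2],
  [nat_lit 3, nat_lit 7, nat_lit 7, nat_lit 3],
  [nat_lit 8],
  [nat_lit 9]]

noncomputable def oD : ℕ → O := locv df o0
theorem vmD : VM TD bas oD := vm0.ext (by decide +kernel)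

theorem df_lt : ∀ a < 19, ∀ b ∈ gd [] df a, b < 8 := by decide +kernel
theorem memD : ∀ a < 19, oD a ∈ Om := fun a ha => ev_mem fun b hb => mem0 b (df_lt a ha b hb)

open Classical in
noncomputable def sub (o : ℕ → O) (a : ℕ) : Om := if h : o a ∈ Om then ⟨o a, h⟩ else 1

theorem sub_coe {o : ℕ → O} {a : ℕ} (h : o a ∈ Om) : (sub o a : O) = o a := by rw [sub, dif_pos h]

theorem coe_ev {o : ℕ → O} {w : List ℕ} (h : ∀ a ∈ w, o a ∈ Om) : (ev (sub o) w : Om) = ev o w :=
  (map_ev Om.subtype _ w).trans (ev_congr fun a ha => sub_coe (h a ha))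

noncomputable def x0 : ℕ → Om := sub o0
noncomputable def x : ℕ → Om := sub oD
def TG : VT := { TD with G := 19 }

theorem vmG : VM TG bas x := ⟨by decide +kernel, basOm, fun a ha m => by
  have e := vmD.act a (lt_trans ha (by decide)) m
  rw [← sub_coe (memD a ha)] at e
  exact e⟩

theorem x_eq {a : ℕ} (ha : a < 19) : x a = ev x0 (gd [] df a) :=
  Subtype.ext ((sub_coe (memD a ha)).trans (coe_ev fun b hb => mem0 b (df_lt a ha b hb)).symm)

theorem cen {z : Om} (hz : z ∈ Subgroup.center Om) : z.1.1.1 = 1 ∨ z.1.1.1 = -1 := by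
  have h := H11.isQuad_plus 4 F
  have hB := H11.bPlus_sep 4 F
  rcases (h.mem_center_commutator_iff hB (h.nonExc_of_finrank hB (by simp)) (by simp) _).1
    ((H11.mem_center_equiv (H11.omegaEquiv h) z).1 hz) with e | e
  · exact .inl ((H11.coe_eq_iff_oEquiv h z.1 (by simp)).2 e)
  · exact .inr ((H11.coe_eq_iff_oEquiv h z.1 (by simp [neg_mulVec])).2 e)

theorem cen_sq {z : Om} (hz : z ∈ Subgroup.center Om) : z ^ 2 = 1 := by
  refine Subtype.ext (Subtype.ext (Units.ext ?_))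
  show z.1.1.1 ^ 2 = 1
  rcases cen hz with e | e <;> rw [e] <;> simp

theorem cen_act {z : Om} (hz : z ∈ Subgroup.center Om) (v : ι → F) : z • v = v ∨ z • v = -v := by
  show z.1.1.1 *ᵥ v = v ∨ z.1.1.1 *ᵥ v = -v
  rcases cen hz with e | e <;> rw [e] <;> simp [neg_mulVec]

theorem cen_card : Nat.card (Subgroup.center Om) ≤ 2 := by
  have := Nat.card_le_card_of_injective (fun z : Subgroup.center Om =>
    (⟨z.1.1.1.1, by simpa using cen z.2⟩ : ({1, -1} : Finset (Matrix ι ι F)))) fun a b e =>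
      Subtype.ext (Subtype.ext (Subtype.ext (Units.ext (congrArg Subtype.val e))))
  rw [Nat.card_eq_fintype_card (α := ({1, -1} : Finset (Matrix ι ι F))), Fintype.card_coe] at this
  exact this.trans Finset.card_le_two

theorem cardL : Nat.card L = 4952179814400 := by
  have := S0293.result (F := F) (q := 3) (by simp) 4 le_rfl
  rw [show 3 ^ (4 * (4 - 1)) * (3 ^ 4 - 1) * ∏ i ∈ Finset.range (4 - 1), (3 ^ (2 * (i + 1)) - 1) =
    4 * 4952179814400 by decide +kernel, show Nat.gcd 4 (3 ^ 4 - 1) = 4 by decide +kernel] at this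
  exact Nat.eq_of_mul_eq_mul_left (by norm_num) this

theorem cardOm : Nat.card Om ≤ 9904359628800 := by
  have := cen_card
  rw [← (Subgroup.center Om).card_mul_index, Subgroup.index_eq_card, show Nat.card (Om ⧸ _) = _ from cardL]
  exact (Nat.mul_le_mul_right _ this).trans (by norm_num)

def Tm (k : ι) : Matrix ι ι F := fun i j => (dg 2 (nat_lit 0x40100004000000000000000000000100000000010000002000004000000008000002000000000008000000004000100100000000000000000008001000800000000000000002008000002000080000001080000000040000000000000200000004000080002000000000010000000000000004002000400002000000000000) (64 * ix i + 8 * ix j + ix k) : F)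
def sg (a : ℕ) : ℕ := dg 4 (nat_lit 0x47560312) a

theorem tri : ∀ a < 8, sg a < 8 ∧ (∃ b < 8, sg b = a) ∧
    ∀ k, (A0 a)ᵀ * Tm k * A0 (sg a) = ∑ l, A0 (sg (sg a)) k l • Tm l := by decide +kernel

def Rel (u v : ι → F) : Prop := ∀ k, u ⬝ᵥ Tm k *ᵥ v = 0

theorem Rel.neg {u v u' v' : ι → F} (h : Rel u v) (h1 : u = u' ∨ u = -u') (h2 : v = v' ∨ v = -v') :
    Rel u' v' := fun k => by
  have := h k
  rcases h1 with rfl | rfl <;> rcases h2 with rfl | rfl <;> simpa [mulVec_neg] using this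

theorem x0_act {a : ℕ} (h : a < 8) (v : ι → F) : (x0 a)⁻¹ • v = A0 a *ᵥ v := by
  rw [← o0_act (by omega), ← sub_coe (mem0 a h)]; rfl

def HH : Subgroup (Om × Om) := Subgroup.closure {p | ∃ a < 8, p = (x0 a, x0 (sg a))}

theorem HH_rel : ∀ p ∈ HH, ∀ u v, Rel u v → Rel (p.1⁻¹ • u) (p.2⁻¹ • v) :=
  mem_of_closed (fun u v h => by simpa using h) (by
    rintro p hp _ ⟨a, ha, rfl⟩ u v h k
    obtain ⟨h1, -, h2⟩ := tri a ha
    have h3 := hp u v h
    rw [Prod.fst_mul, Prod.snd_mul, _root_.mul_inv_rev, _root_.mul_inv_rev, mul_smul, mul_smul, x0_act ha,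
      x0_act h1, mulVec_mulVec, ← vecMul_transpose, ← dotProduct_mulVec, mulVec_mulVec, ← mul_assoc, h2 k,
      sum_mulVec, dotProduct_sum]
    exact Finset.sum_eq_zero fun l _ => by rw [smul_mulVec, dotProduct_smul, h3 l, smul_zero])

abbrev π : Om →* L := QuotientGroup.mk' _

theorem tau (htop : ∀ K : Subgroup Om, (∀ a < 8, x0 a ∈ K) → K = ⊤) :
    ∃ τ : MulAut L, ∀ a < 8, τ (π (x0 a)) = π (x0 (sg a)) := by
  haveI : IsSimpleGroup L := S0296.result 4 le_rfl
  have hm : ∀ a < 8, (x0 a, x0 (sg a)) ∈ HH := fun a ha => Subgroup.subset_closure ⟨a, ha, rfl⟩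
  obtain ⟨τ, hτ⟩ := O8Z.graph_aut (HH.map (π.prodMap π)) (fun a => by
      obtain ⟨y, rfl⟩ := QuotientGroup.mk'_surjective _ a
      obtain ⟨p, hp, rfl⟩ : y ∈ HH.map (MonoidHom.fst _ _) := by
        rw [htop (HH.map (MonoidHom.fst _ _)) fun a ha => ⟨_, hm a ha, rfl⟩]; trivial
      exact ⟨_, p, hp, rfl⟩) (fun a => by
      obtain ⟨y, rfl⟩ := QuotientGroup.mk'_surjective _ a
      obtain ⟨p, hp, rfl⟩ : y ∈ HH.map (MonoidHom.snd _ _) := by
        rw [htop (HH.map (MonoidHom.snd _ _)) fun a ha => by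
          obtain ⟨b, hb, rfl⟩ := (tri a ha).2.1
          exact ⟨_, hm b hb, rfl⟩]; trivial
      exact ⟨_, p, hp, rfl⟩) (fun h => by
      obtain ⟨p, hp, e⟩ : (π (x0 0), 1) ∈ HH.map (π.prodMap π) := h ▸ Subgroup.mem_top _
      obtain ⟨z, hz, e1⟩ := (QuotientGroup.mk'_eq_mk' _).1 (congrArg Prod.fst e)
      have e2 : p.2 ∈ Subgroup.center Om := (QuotientGroup.eq_one_iff _).1 (congrArg Prod.snd e)
      have h1 : Rel (bas 1) (bas 3) ∧ ¬ Rel (A0 0 *ᵥ bas 1) (bas 3) := by
        unfold Rel; decide +kernel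
      refine h1.2 ((HH_rel p hp _ _ h1.1).neg ?_ (cen_act (Subgroup.inv_mem _ e2) _))
      rw [← x0_act (by norm_num), show p.1 = _ from eq_mul_inv_of_mul_eq e1, _root_.mul_inv_rev, inv_inv, mul_smul]
      exact cen_act hz _)
  exact ⟨τ, fun a ha => hτ _ ⟨_, hm a ha, rfl⟩⟩

end Cfsg.Agent.H25.O8
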