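import Mathlib
import Cfsg.Agent.H25.Util
import Cfsg.Agent.H25.ONC
import Cfsg.Agent.H25.ONp2
import Cfsg.Agent.H25.ONp3
import Cfsg.Agent.H25.ONp7

set_option maxRecDepth 100000
set_option linter.all false

namespace Cfsg.Agent.H25.ON
open Cfsg.Agent.H25

theorem bound (Γ : Type) [Group Γ] [Finite Γ] (σ : Γ →* G0) (hσ : IsStemExtension σ) :
    Nat.card σ.ker ≤ 3 :=
  card_ker_dvd (B := 31) [(2, 0), (3, 1), (7, 0)] hcard (by decide +kernel) (by decide +kernel) (by norm_num) (by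
    simp only [List.mem_cons, List.not_mem_nil, or_false, forall_eq_or_imp, forall_eq]
    exact ⟨⟨pb2, by decide⟩,
      ⟨pb3, by decide⟩,
      ⟨pb7, by decide⟩⟩) Γ σ hσ

theorem mult : HasCyclicSchurMultiplier G0 3 :=
  hasSchur_cyc1 (GG := 8) relP htop hg hP hQ c3_cov (by decide +kernel) bound

end Cfsg.Agent.H25.ON
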