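import Mathlib
import Cfsg.Agent.H25.Util
import Cfsg.Agent.H25.ONB
import Cfsg.Agent.H25.J1O
import Cfsg.Agent.H25.M11
import Cfsg.Agent.H14.M24f

set_option maxRecDepth 100000
set_option linter.all false

namespace Cfsg.Agent.H25.ON
open Cfsg.Agent.H25

def WJ : List (List ℕ) :=
  [[nat_lit 2, nat_lit 4, nat_lit 6, nat_lit 3, nat_lit 7, nat_lit 2, nat_lit 1, nat_lit 6, nat_lit 4, nat_lit 3, nat_lit 2, nat_lit 3, nat_lit 6, nat_lit 1, nat_lit 2, nat_lit 6, nat_lit 4, nat_lit 3, nat_lit 7, nat_lit 2, nat_lit 4],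
  [nat_lit 2, nat_lit 3, nat_lit 6, nat_lit 0, nat_lit 1, nat_lit 0, nat_lit 2, nat_lit 1, nat_lit 0, nat_lit 3, nat_lit 2, nat_lit 4, nat_lit 3, nat_lit 2, nat_lit 5, nat_lit 4, nat_lit 3, nat_lit 6, nat_lit 1, nat_lit 4, nat_lit 3, nat_lit 6, nat_lit 2, nat_lit 6, nat_lit 3, nat_lit 2, nat_lit 1, nat_lit 0, nat_lit 4, nat_lit 5],
  [nat_lit 0, nat_lit 1, nat_lit 3, nat_lit 6, nat_lit 1, nat_lit 3, nat_lit 2, nat_lit 3, nat_lit 4, nat_lit 3, nat_lit 2, nat_lit 1, nat_lit 3, nat_lit 2, nat_lit 3, nat_lit 2, nat_lit 1, nat_lit 4, nat_lit 3, nat_lit 2, nat_lit 5, nat_lit 6, nat_lit 4, nat_lit 6, nat_lit 3, nat_lit 2, nat_lit 6, nat_lit 4, nat_lit 3, nat_lit 2],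
  [nat_lit 2, nat_lit 6, nat_lit 1, nat_lit 0, nat_lit 2, nat_lit 1, nat_lit 3, nat_lit 4, nat_lit 3, nat_lit 2, nat_lit 1, nat_lit 3, nat_lit 2, nat_lit 4, nat_lit 3, nat_lit 5, nat_lit 4, nat_lit 3, nat_lit 2, nat_lit 6, nat_lit 4, nat_lit 7, nat_lit 3, nat_lit 2, nat_lit 1, nat_lit 7, nat_lit 3, nat_lit 2, nat_lit 3, nat_lit 4, nat_lit 6],
  [nat_lit 4, nat_lit 3, nat_lit 6, nat_lit 1, nat_lit 4, nat_lit 3, nat_lit 2, nat_lit 1, nat_lit 0, nat_lit 3, nat_lit 2, nat_lit 1, nat_lit 0, nat_lit 4, nat_lit 3, nat_lit 2, nat_lit 1, nat_lit 3, nat_lit 2, nat_lit 3, nat_lit 4, nat_lit 3, nat_lit 2, nat_lit 3, nat_lit 6, nat_lit 1, nat_lit 2, nat_lit 1, nat_lit 4, nat_lit 3, nat_lit 2, nat_lit 7]]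
def WM : List (List ℕ) :=
  [[nat_lit 4, nat_lit 6, nat_lit 2, nat_lit 1, nat_lit 5, nat_lit 4, nat_lit 3, nat_lit 2, nat_lit 1, nat_lit 0, nat_lit 3, nat_lit 6, nat_lit 4, nat_lit 3, nat_lit 2, nat_lit 6, nat_lit 1, nat_lit 3, nat_lit 2, nat_lit 3, nat_lit 4, nat_lit 7, nat_lit 3, nat_lit 2],
  [nat_lit 3, nat_lit 4, nat_lit 3, nat_lit 7, nat_lit 4, nat_lit 3, nat_lit 2, nat_lit 1, nat_lit 0, nat_lit 3, nat_lit 2, nat_lit 4, nat_lit 3, nat_lit 5, nat_lit 4, nat_lit 6, nat_lit 1, nat_lit 2, nat_lit 6, nat_lit 3, nat_lit 2, nat_lit 1, nat_lit 0, nat_lit 4, nat_lit 3, nat_lit 2, nat_lit 6, nat_lit 1],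
  [nat_lit 5, nat_lit 4, nat_lit 3, nat_lit 2, nat_lit 7, nat_lit 1, nat_lit 4, nat_lit 3, nat_lit 2, nat_lit 1, nat_lit 3, nat_lit 4, nat_lit 6, nat_lit 2, nat_lit 3, nat_lit 4, nat_lit 5],
  [nat_lit 0, nat_lit 2, nat_lit 4, nat_lit 3, nat_lit 2, nat_lit 1, nat_lit 3, nat_lit 2, nat_lit 3, nat_lit 4, nat_lit 3, nat_lit 2, nat_lit 3, nat_lit 2, nat_lit 1, nat_lit 0, nat_lit 6, nat_lit 4, nat_lit 3, nat_lit 2, nat_lit 3, nat_lit 4, nat_lit 6, nat_lit 1, nat_lit 0, nat_lit 2, nat_lit 3, nat_lit 4, nat_lit 5],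
  [nat_lit 3, nat_lit 2, nat_lit 1, nat_lit 6, nat_lit 2, nat_lit 1, nat_lit 0, nat_lit 3, nat_lit 4, nat_lit 3, nat_lit 2, nat_lit 1, nat_lit 3, nat_lit 2, nat_lit 3, nat_lit 7, nat_lit 1, nat_lit 2, nat_lit 4, nat_lit 6, nat_lit 3, nat_lit 2, nat_lit 1, nat_lit 7, nat_lit 3, nat_lit 2]]
theorem rJ : allL (fun w => eq (expand WJ w) []) J1.P = true := by decide +kernel
theorem subJ : ∃ K : Subgroup G0, IsSimpleGroup K ∧ Nat.card K = 175560 := by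
  haveI := J1O.simple
  obtain ⟨K, ⟨e⟩⟩ := sub_of_words (GG := 5) J1.relP J1.htop (fun a h => locv_ge a h) J1.hP (E := g) (W := WJ) (by decide)
    (fun w hw => heq _ [] (allL_sound rJ w hw)) (hne _ [] (by decide +kernel))
  exact ⟨K, e.symm.isSimpleGroup, (Nat.card_congr e.toEquiv).symm.trans J1.hcard⟩

theorem rM : allL (fun w => eq (expand WM w) []) M11.P = true := by decide +kernel
theorem subM : ∃ K : Subgroup G0, IsSimpleGroup K ∧ Nat.card K = 7920 := by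
  haveI := H14.simple_M11
  obtain ⟨K, ⟨e⟩⟩ := sub_of_words (GG := 5) M11.relP M11.htb.1 (mg_one _ M11.Ts) M11.hP (E := g) (W := WM) (by decide)
    (fun w hw => heq _ [] (allL_sound rM w hw)) (hne _ [] (by decide +kernel))
  exact ⟨K, e.symm.isSimpleGroup, (Nat.card_congr e.toEquiv).symm.trans M11.hcard⟩

end Cfsg.Agent.H25.ON
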