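import Mathlib
import Cfsg.Agent.H25.CenB
import Cfsg.Agent.H11.Bridge2
import Cfsg.Agent.S0288
import Cfsg.Agent.S0296

/-! A matrix model of `Ω₆⁻(2)`. -/

set_option maxRecDepth 100000
set_option linter.all false

namespace Cfsg.Agent.H25.Om2
open Cfsg Cfsg.Agent.H25 Matrix

abbrev ι := (Fin 2 ⊕ Fin 2) ⊕ Fin 2
abbrev F := ZMod 2
abbrev O := ↥(isometryGroup F (quadFormMinus 2 F 1 1))
abbrev Om := Omega F (quadFormMinus 2 F 1 1)

noncomputable instance dO : DistribMulAction O (ι → F) := inferInstance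
noncomputable instance mO : MulAction O (ι → F) := dO.toMulAction
noncomputable instance sO : SMul O (ι → F) := mO.toSMul
noncomputable instance mOm : MulAction Om (ι → F) := inferInstance
noncomputable instance sOm : SMul Om (ι → F) := mOm.toSMul

def ix : ι → ℕ := Sum.elim (Sum.elim (fun i => i.val) (fun i => i.val + 2)) (fun i => i.val + 4)
def bas (i : ℕ) : ι → F := fun j => if ix j = i then 1 else 0

theorem ix_lt : ∀ j, ix j < 6 := by decide
theorem ix_surj : ∀ i < 6, ∃ j, ix j = i := by decide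
theorem bas_ix : ∀ i, bas (ix i) = Pi.single i 1 := by decide

theorem bas_dec (m : ℕ) (j : ι) : vdec 6 5 bas m j = (dg 5 m (ix j) : F) := by
  simp [vdec, bas, Finset.sum_apply, ix_lt]

theorem basO : Bas O 2 6 5 bas where
  hp i := by funext j; simp; exact .inl rfl
  ind a b e j hj := by
    obtain ⟨j, rfl⟩ := ix_surj j hj
    have := congrFun e j
    rw [bas_dec, bas_dec] at this
    exact (ZMod.natCast_eq_natCast_iff' _ _ _).1 this
  span y h := by
    refine Subtype.ext (Units.ext (Matrix.ext fun i j => ?_))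
    have := congrFun (h _ (ix_lt j)) i
    rw [bas_ix] at this
    have e : (y.1.val.mulVec (Pi.single j 1)) i = _ := this
    simpa [Matrix.one_apply, Pi.single_apply] using e

def A : Matrix ι ι F := fromBlocks (fromBlocks 0 1 0 0) 0 0 !![1, 1; 0, 1]
def J : Matrix ι ι F := fromBlocks (fromBlocks 0 1 1 0) 0 0 !![0, 1; 1, 0]
theorem JJ : J * J = 1 := by decide +kernel

theorem AQ (v : ι → F) : v ⬝ᵥ A *ᵥ v = quadFormMinus 2 F 1 1 v := by
  simp [A, quadFormMinus, dotProduct, mulVec, Fintype.sum_sum_type, Fin.sum_univ_two, Matrix.one_apply, pow_two,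
    -ZMod.pow_card]
  ring

def up (M : Matrix ι ι F) : Matrix ι ι F := fun i j => if ix i < ix j then M i j else 0

def Gd (C : Matrix ι ι F) : Prop :=
  Cᵀ * J * C = J ∧ Cᵀ * A * C = A + (up (Cᵀ * A * C - A) + (up (Cᵀ * A * C - A))ᵀ)

instance (C : Matrix ι ι F) : Decidable (Gd C) := by unfold Gd; infer_instance

def mkO (C : Matrix ι ι F) (h : Gd C) : O :=
  have e : J * Cᵀ * J * C = 1 := by rw [mul_assoc J, mul_assoc J, h.1, JJ]
  ⟨⟨C, J * Cᵀ * J, mul_eq_one_comm.1 e, e⟩, fun u _ => by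
    show quadFormMinus 2 F 1 1 (C *ᵥ u) = quadFormMinus 2 F 1 1 u
    rw [← AQ, ← AQ, mulVec_mulVec, ← vecMul_transpose, ← dotProduct_mulVec, mulVec_mulVec, ← mul_assoc, h.2,
      add_mulVec, add_mulVec, dotProduct_add, dotProduct_add, mulVec_transpose, dotProduct_comm u (u ᵥ* _),
      ← dotProduct_mulVec, CharTwo.add_self_eq_zero, add_zero]⟩

noncomputable def cm (r : List ℕ) : Matrix ι ι F := fun j i => (dg 5 (gd 0 r (ix i)) (ix j) : F)

noncomputable def o (R : List (List ℕ)) (a : ℕ) : O :=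
  if h : Gd (cm (gd [] R a)) then (mkO _ h)⁻¹ else 1

theorem vm {T : VT} (hT : T.p = 2 ∧ T.n = 6 ∧ T.w = 5) (hk : T.ok = true)
    (h : ∀ a < T.G, Gd (cm (gd [] T.rows a))) : VM T bas (o T.rows) := by
  obtain ⟨h1, h2, h3⟩ := hT
  refine VM.of_rows hk (by rw [h1, h2, h3]; exact basO) fun a ha i hi => ?_
  rw [h2] at hi
  obtain ⟨i, rfl⟩ := ix_surj i hi
  funext j
  rw [o, dif_pos (h a ha), inv_inv, bas_ix, h2, h3, bas_dec]
  show (cm _ *ᵥ _) j = _
  simp [cm]

theorem an : ∀ z₁ z₂ : F, z₁ ^ 2 + 1 * z₁ * z₂ + 1 * z₂ ^ 2 = 0 → z₁ = 0 ∧ z₂ = 0 := by decide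

theorem facts : Nat.card Om = 25920 ∧ IsSimpleGroup Om := by
  have h := H11.isQuad_minus 2 F 1 1
  have hB := H11.bMinus_sep 2 an
  have hex := h.nonExc_of_finrank hB (by simp)
  have e1 : Nat.card O = _ := S0288.result (F := F) (q := 2) (by simp) 3 (by norm_num) 1 1 an
  rw [Nat.card_congr (H11.oEquiv h).toEquiv, ← (commutator _).card_mul_index,
    h.index_commutator_of_char_two hB hex rfl (by simp), show 2 * 2 ^ (3 * (3 - 1)) * (2 ^ 3 + 1) *
      ∏ i ∈ Finset.range (3 - 1), (2 ^ (2 * (i + 1)) - 1) = 25920 * 2 by decide +kernel] at e1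
  have := h.isSimpleGroup_pomega hB (by simp)
  have := ((QuotientGroup.quotientMulEquivOfEq (h.center_commutator_eq_bot hB hex (by simp) (.inl rfl))).trans
    QuotientGroup.quotientBot).symm.isSimpleGroup
  exact ⟨(Nat.card_congr (H11.omegaEquiv h).toEquiv).trans (by omega), (H11.omegaEquiv h).isSimpleGroup⟩

theorem card : Nat.card Om = 25920 := facts.1
instance : Finite Om := Nat.finite_of_card_ne_zero (by rw [card]; norm_num)
instance simple : IsSimpleGroup Om := facts.2

end Cfsg.Agent.H25.Om2
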