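import Mathlib
import Cfsg.Agent.H25.CenB
import Cfsg.Agent.H11.Bridge2
import Cfsg.Agent.S0293
import Cfsg.Agent.S0296

/-! A matrix model of `Ω₈⁺(2)`. -/

set_option maxRecDepth 100000
set_option linter.all false

namespace Cfsg.Agent.H25.Op2
open Cfsg Cfsg.Agent.H25 Matrix

abbrev ι := Fin 4 ⊕ Fin 4
abbrev F := ZMod 2
abbrev O := ↥(isometryGroup F (quadFormPlus 4 F))
abbrev Om := Omega F (quadFormPlus 4 F)

noncomputable instance dO : DistribMulAction O (ι → F) := inferInstance
noncomputable instance mO : MulAction O (ι → F) := dO.toMulAction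
noncomputable instance sO : SMul O (ι → F) := mO.toSMul
noncomputable instance mOm : MulAction Om (ι → F) := inferInstance
noncomputable instance sOm : SMul Om (ι → F) := mOm.toSMul

def ix : ι → ℕ := Sum.elim (fun i => i.val) (fun i => i.val + 4)
def bas (i : ℕ) : ι → F := fun j => if ix j = i then 1 else 0

theorem ix_lt : ∀ j, ix j < 8 := by decide
theorem ix_surj : ∀ i < 8, ∃ j, ix j = i := by decide
theorem bas_ix : ∀ i, bas (ix i) = Pi.single i 1 := by decide

theorem bas_dec (m : ℕ) (j : ι) : vdec 8 6 bas m j = (dg 6 m (ix j) : F) := by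
  simp [vdec, bas, Finset.sum_apply, ix_lt]

theorem basO : Bas O 2 8 6 bas where
  hp i := by funext j; simp; exact .inl rfl
  ind a b e j hj := by
    obtain ⟨j, rfl⟩ := ix_surj j hj
    have := congrFun e j
    rw [bas_dec, bas_dec] at this
    exact (ZMod.natCast_eq_natCast_iff' _ _ _).1 this
  span y h := by
    refine Subtype.ext (Units.ext (Matrix.ext fun i j => ?_))
    have := congrFun (h _ (ix_lt j)) i
    rw [bas_ix] at this
    have e : (y.1.val.mulVec (Pi.single j 1)) i = _ := this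
    simpa [Matrix.one_apply, Pi.single_apply] using e

def A : Matrix ι ι F := fromBlocks 0 1 0 0
def J : Matrix ι ι F := fromBlocks 0 1 1 0
theorem JJ : J * J = 1 := by decide +kernel

theorem AQ (v : ι → F) : v ⬝ᵥ A *ᵥ v = quadFormPlus 4 F v := by
  simp [A, quadFormPlus, dotProduct, mulVec, Fintype.sum_sum_type, Fin.sum_univ_four, Matrix.one_apply]

def up (M : Matrix ι ι F) : Matrix ι ι F := fun i j => if ix i < ix j then M i j else 0

def Gd (C : Matrix ι ι F) : Prop :=
  Cᵀ * J * C = J ∧ Cᵀ * A * C = A + (up (Cᵀ * A * C - A) + (up (Cᵀ * A * C - A))ᵀ)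

instance (C : Matrix ι ι F) : Decidable (Gd C) := by unfold Gd; infer_instance

def mkO (C : Matrix ι ι F) (h : Gd C) : O :=
  have e : J * Cᵀ * J * C = 1 := by rw [mul_assoc J, mul_assoc J, h.1, JJ]
  ⟨⟨C, J * Cᵀ * J, mul_eq_one_comm.1 e, e⟩, fun u _ => by
    show quadFormPlus 4 F (C *ᵥ u) = quadFormPlus 4 F u
    rw [← AQ, ← AQ, mulVec_mulVec, ← vecMul_transpose, ← dotProduct_mulVec, mulVec_mulVec, ← mul_assoc, h.2,
      add_mulVec, add_mulVec, dotProduct_add, dotProduct_add, mulVec_transpose, dotProduct_comm u (u ᵥ* _),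
      ← dotProduct_mulVec, CharTwo.add_self_eq_zero, add_zero]⟩

noncomputable def cm (r : List ℕ) : Matrix ι ι F := fun j i => (dg 6 (gd 0 r (ix i)) (ix j) : F)

noncomputable def o (R : List (List ℕ)) (a : ℕ) : O :=
  if h : Gd (cm (gd [] R a)) then (mkO _ h)⁻¹ else 1

theorem vm {T : VT} (hT : T.p = 2 ∧ T.n = 8 ∧ T.w = 6) (hk : T.ok = true)
    (h : ∀ a < T.G, Gd (cm (gd [] T.rows a))) : VM T bas (o T.rows) := by
  obtain ⟨h1, h2, h3⟩ := hT
  refine VM.of_rows hk (by rw [h1, h2, h3]; exact basO) fun a ha i hi => ?_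
  rw [h2] at hi
  obtain ⟨i, rfl⟩ := ix_surj i hi
  funext j
  rw [o, dif_pos (h a ha), inv_inv, bas_ix, h2, h3, bas_dec]
  show (cm _ *ᵥ _) j = _
  simp [cm]

theorem cen : Subgroup.center Om = ⊥ := eq_bot_iff.2 fun z hz => by
  have h := H11.isQuad_plus 4 F
  have hB := H11.bPlus_sep 4 F
  refine Subtype.ext (Subtype.ext (Units.ext ?_))
  rcases (h.mem_center_commutator_iff hB (h.nonExc_of_finrank hB (by simp)) (by simp) _).1
    ((H11.mem_center_equiv (H11.omegaEquiv h) z).1 hz) with e | e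
  · exact (H11.coe_eq_iff_oEquiv h z.1 (by simp)).2 e
  · exact ((H11.coe_eq_iff_oEquiv h z.1 (by simp [neg_mulVec])).2 e).trans
      (show (-1 : Matrix ι ι F) = 1 by decide +kernel)

noncomputable def eqv : POmega F (quadFormPlus 4 F) ≃* Om :=
  (QuotientGroup.quotientMulEquivOfEq cen).trans QuotientGroup.quotientBot

theorem card : Nat.card Om = 174182400 := by
  have := S0293.result (F := F) (q := 2) (by simp) 4 le_rfl
  rw [show Nat.gcd 4 (2 ^ 4 - 1) = 1 by decide +kernel, one_mul, Nat.card_congr eqv.toEquiv] at this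
  exact this.trans (by decide +kernel)

instance : Finite Om := Nat.finite_of_card_ne_zero (by rw [card]; norm_num)

instance simple : IsSimpleGroup Om :=
  haveI := S0296.result (F := F) 4 le_rfl
  eqv.symm.isSimpleGroup

end Cfsg.Agent.H25.Op2
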