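import Mathlib
import Cfsg.Agent.H28.PC

/-! Splitting the check `PCD.ok2` into chunks. -/

namespace Cfsg.Agent.H25
open Cfsg.Agent.H28

/-- the values of `f` on a range of `l` are listed in `U` -/
noncomputable def chU {β : Type} (d : β) (f : β → ℕ) (l : List β) (U : List ℕ) (lo hi : ℕ) : Bool :=
  allRange (fun j => Nat.beq (f (gd d l j)) (gd 0 U j)) lo hi

theorem chU_sound {β : Type} {d : β} {f : β → ℕ} {l : List β} {U : List ℕ} {lo hi : ℕ}
    (h : chU d f l U lo hi = true) : ∀ j, lo ≤ j → j < hi → f (gd d l j) = gd 0 U j :=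
  fun j a b => Nat.eq_of_beq_eq_true (allRange_sound h j a b)

theorem map_eq_of {β : Type} {d : β} {f : β → ℕ} {l : List β} {U : List ℕ} {n : ℕ}
    (h : ∀ j < n, f (gd d l j) = gd 0 U j) (hl : l.length = n ∧ U.length = n) : l.map f = U := by
  refine List.ext_getElem (by rw [List.length_map, hl.1, hl.2]) fun j h1 h2 => ?_
  rw [List.length_map] at h1
  have := h j (hl.1 ▸ h1)
  rw [gd_eq, gd_eq, List.getD_eq_getElem _ _ h1, List.getD_eq_getElem _ _ h2] at this
  rw [List.getElem_map, this]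

theorem ok2_of {V : PCD} {U1 U2 : List ℕ} (h1 : V.RA.map V.relA = U1) (h2 : V.RB.map V.relB = U2)
    (h3 : V.lin (app U1 U2) = true) : V.ok2 = true := by
  rw [PCD.ok2, mapF_eq, mapF_eq, h1, h2, h3]

end Cfsg.Agent.H25
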