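import Mathlib
import Cfsg.Agent.H25.Util
import Cfsg.Agent.H25.RuM2
import Cfsg.Agent.H25.RuM3
import Cfsg.Agent.H25.RuM5

set_option maxRecDepth 100000
set_option linter.all false

namespace Cfsg.Agent.H25.RuO
open Cfsg.Agent.H25

open Cfsg.Agent.H25.Ru
open scoped commutatorElement

theorem bound (Γ : Type) [Group Γ] [Finite Γ] (σ : Γ →* G0) (hσ : IsStemExtension σ) :
    Nat.card σ.ker ≤ 2 :=
  card_ker_dvd (B := 29) [(2, 1), (3, 0), (5, 0)] hcard (by decide +kernel) (by decide +kernel) (by norm_num) (by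
    simp only [List.mem_cons, List.not_mem_nil, or_false, forall_eq_or_imp, forall_eq]
    exact ⟨⟨pb2, by decide⟩,
      ⟨pb3, by decide⟩,
      ⟨pb5, by decide⟩⟩) Γ σ hσ

noncomputable def σ : commutator G →* G0 := mk1.comp (commutator G).subtype

theorem σ_surj (y : G0) : ∃ c : commutator G, σ c = y := by
  have : (commutator G).map mk1 = ⊤ := by
    rw [commutator, Subgroup.map_commutator, ← MonoidHom.range_eq_map,
      MonoidHom.range_eq_top.2 (QuotientGroup.mk'_surjective _)]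
    exact perf
  obtain ⟨c, hc, e⟩ : y ∈ (commutator G).map mk1 := this ▸ Subgroup.mem_top y
  exact ⟨⟨c, hc⟩, e⟩

theorem σ_ker {y : commutator G} : y ∈ σ.ker ↔ y.1 ∈ Subgroup.center G := QuotientGroup.eq_one_iff _

theorem σ_stem : IsStemExtension σ := by
  refine ⟨σ_surj, fun y hy => Subgroup.mem_center_iff.2 fun x =>
    Subtype.ext (Subgroup.mem_center_iff.1 (σ_ker.1 hy) x), fun y _ => ?_⟩
  have : commutator G ≤ (commutator (commutator G)).map (commutator G).subtype := by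
    rw [Subgroup.map_subtype_commutator]
    refine Subgroup.commutator_le.2 fun a _ b _ => ?_
    obtain ⟨c, e1⟩ := σ_surj (mk1 a)
    obtain ⟨d, e2⟩ := σ_surj (mk1 b)
    have h1 := Subgroup.mem_center_iff.1 (QuotientGroup.eq.1 e1)
    have h2 := Subgroup.mem_center_iff.1 (QuotientGroup.eq.1 e2)
    have h3 := Subgroup.commutator_mem_commutator c.2 d.2
    change ∀ g, g * ((c : G)⁻¹ * a) = (c : G)⁻¹ * a * g at h1
    change ∀ g, g * ((d : G)⁻¹ * b) = (d : G)⁻¹ * b * g at h2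
    rw [← mul_inv_cancel_left (c : G) a, ← mul_inv_cancel_left (d : G) b]
    generalize (c : G)⁻¹ * a = z at h1
    generalize (d : G)⁻¹ * b = w at h2
    rwa [show ⁅c * z, d * w⁆ = ⁅(c : G), (d : G)⁆ by
      calc _ = c * (z * (d * w)) * z⁻¹ * (c : G)⁻¹ * w⁻¹ * (d : G)⁻¹ := by rw [commutatorElement_def]; group
        _ = c * d * (w * (c : G)⁻¹) * w⁻¹ * (d : G)⁻¹ := by rw [← h1]; group
        _ = _ := by rw [← h2, commutatorElement_def]; group]
  obtain ⟨z, hz, e⟩ := this y.2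
  exact Subtype.ext e ▸ hz

theorem J_sq_ne : J ^ 2 ≠ 1 := fun e => by
  have := canon (i := 0) (j := 0) (m := 2) (by omega) (by omega) (by omega) (by rw [e, one_smul])
  omega

theorem σ_card : Nat.card σ.ker = 2 := by
  have h1 := bound _ σ σ_stem
  have h2 : 0 < Nat.card σ.ker := Nat.card_pos
  have h3 : Nat.card σ.ker ≠ 1 := fun e => J_sq_ne (congrArg Subtype.val (Subgroup.mem_bot.1
    (Subgroup.card_eq_one.1 e ▸ σ_ker.2 (pow_mem J_central 2) : (⟨_, J_sq⟩ : commutator G) ∈ ⊥)))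
  omega

theorem J_not : J ∉ commutator G := fun h => by
  have := pow_card_eq_one' (x := (⟨⟨J, h⟩, σ_ker.2 J_central⟩ : σ.ker))
  rw [σ_card] at this
  exact J_sq_ne (congrArg (fun t : σ.ker => t.1.1) this)

theorem mult : HasCyclicSchurMultiplier Spor.Ru 2 := by
  haveI : Fact (Nat.Prime 2) := ⟨Nat.prime_two⟩
  have hc : Nat.card (Multiplicative (ZMod 2)) = 2 := by simp
  refine ⟨⟨_, _, inferInstance, σ, σ_stem, ⟨mulEquivOfPrimeCardEq σ_card hc⟩⟩, fun Γ _ _ σ hσ => ?_⟩
  have h4 := bound Γ σ hσ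
  have h5 : 0 < Nat.card σ.ker := Nat.card_pos
  rcases (by omega : Nat.card σ.ker = 1 ∨ Nat.card σ.ker = 2) with h | h
  · haveI := (Nat.card_eq_one_iff_unique.1 h).1
    exact ⟨1, fun y => ⟨1, Subsingleton.elim _ _⟩⟩
  · exact ⟨(mulEquivOfPrimeCardEq hc h).toMonoidHom, (mulEquivOfPrimeCardEq hc h).surjective⟩

end Cfsg.Agent.H25.RuO
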