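import Mathlib
import Cfsg.Agent.H25.VM
import Cfsg.Agent.S0245
import Cfsg.Agent.S0246
import Cfsg.Agent.S0270

/-! `Sp₆(2)` as a group of matrices acting on its natural module. -/

set_option maxRecDepth 100000
set_option linter.all false

namespace Cfsg.Agent.H25.Sp6
open Cfsg Cfsg.Agent.H25 Matrix

abbrev ι := Fin 3 ⊕ Fin 3
abbrev F := ZMod 2
abbrev S := ↥(Matrix.symplecticGroup (Fin 3) F)

instance dS : DistribMulAction S (ι → F) where
  smul A v := A.1 *ᵥ v
  one_smul v := one_mulVec v
  mul_smul A B v := (mulVec_mulVec v A.1 B.1).symm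
  smul_zero A := mulVec_zero A.1
  smul_add A := mulVec_add A.1
instance mS : MulAction S (ι → F) := dS.toMulAction
instance sS : SMul S (ι → F) := mS.toSMul

def ix : ι → ℕ := Sum.elim (fun i => i.val) (fun i => i.val + 3)
def bas (i : ℕ) : ι → F := fun j => if ix j = i then 1 else 0

theorem ix_lt : ∀ j, ix j < 6 := by decide
theorem ix_surj : ∀ i < 6, ∃ j, ix j = i := by decide
theorem bas_ix : ∀ i, bas (ix i) = Pi.single i 1 := by decide

theorem bas_dec (m : ℕ) (j : ι) : vdec 6 5 bas m j = (dg 5 m (ix j) : F) := by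
  simp [vdec, bas, Finset.sum_apply, ix_lt]

theorem basS : Bas S 2 6 5 bas where
  hp i := by funext j; simp; exact .inl rfl
  ind a b e j hj := by
    obtain ⟨j, rfl⟩ := ix_surj j hj
    have := congrFun e j
    rw [bas_dec, bas_dec] at this
    exact (ZMod.natCast_eq_natCast_iff' _ _ _).1 this
  span y h := by
    refine Subtype.ext (Matrix.ext fun i j => ?_)
    have := congrFun (h _ (ix_lt j)) i
    rw [bas_ix] at this
    have e : (y.1.mulVec (Pi.single j 1)) i = _ := this
    simpa [Matrix.one_apply, Pi.single_apply] using e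

noncomputable def cm (r : List ℕ) : Matrix ι ι F := fun j i => (dg 5 (gd 0 r (ix i)) (ix j) : F)

open Classical in
noncomputable def s (R : List (List ℕ)) (a : ℕ) : S :=
  if h : cm (gd [] R a) ∈ Matrix.symplecticGroup (Fin 3) F then (⟨_, h⟩ : S)⁻¹ else 1

theorem vm {T : VT} (hT : T.p = 2 ∧ T.n = 6 ∧ T.w = 5) (hk : T.ok = true)
    (h : ∀ a < T.G, cm (gd [] T.rows a) * J (Fin 3) F * (cm (gd [] T.rows a))ᵀ = J (Fin 3) F) :
    VM T bas (s T.rows) := by
  obtain ⟨h1, h2, h3⟩ := hT
  refine VM.of_rows hk (by rw [h1, h2, h3]; exact basS) fun a ha i hi => ?_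
  rw [h2] at hi
  obtain ⟨i, rfl⟩ := ix_surj i hi
  funext j
  rw [s, dif_pos (SymplecticGroup.mem_iff.2 (h a ha)), inv_inv, bas_ix, h2, h3, bas_dec]
  show (cm _ *ᵥ _) j = _
  simp [cm]

theorem card : Nat.card S = 1451520 :=
  (S0245.result (F := F) (q := 2) (by simp) 3).trans (by decide +kernel)

instance : Finite S := Nat.finite_of_card_ne_zero (by rw [card]; norm_num)

instance simple : IsSimpleGroup S := by
  haveI := S0270.result (F := F) 3 (by norm_num) (by norm_num)
  have h : Subgroup.center S = ⊥ :=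
    Subgroup.card_eq_one.1 ((S0246.result (F := F) (q := 2) (by simp) 3 (by norm_num)).trans (by decide))
  exact ((QuotientGroup.quotientMulEquivOfEq h).trans QuotientGroup.quotientBot).symm.isSimpleGroup

end Cfsg.Agent.H25.Sp6
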