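import Mathlib
import Cfsg.Agent.H25.Sw2
import Cfsg.Agent.H25.Sw3
import Cfsg.Agent.H25.PBridge
import Cfsg.Agent.H15.Suz
import Cfsg.Agent.S5388

/-! The centraliser of a fixed point free element of order three of `Co₀`, modulo its centre. -/

set_option maxRecDepth 100000
set_option linter.all false

namespace Cfsg.Agent.H25.Sw
open Cfsg Cfsg.Agent.H25 Cfsg.Agent.H25.Leech Cfsg.Agent.H25.CenB Cfsg.Spor
open Cfsg.Agent.S5388 (ι)

theorem l0_eq {Ms Ms' : List ℕ} {a a' : ℕ} (h : a < Ms.length ∧ a' < Ms'.length ∧ gd 0 Ms a = gd 0 Ms' a') :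
    l0 Ms a = l0 Ms' a' := by rw [l0, l0, if_pos h.1, if_pos h.2.1, h.2.2]

theorem rel {u v : List ℕ} (h : (prepL M0 fun ts => eqW ts 19 u v) = true) : ev (l0 M0) u = ev (l0 M0) v :=
  eqW_sound hM (by rwa [prepL_eq] at h)

theorem rels {n : ℕ} {f g : ℕ → List ℕ} (h : (prepL M0 fun ts => allLin (fun a => eqW ts 19 (f a) (g a)) 0 n) = true) :
    ∀ a < n, ev (l0 M0) (f a) = ev (l0 M0) (g a) := fun a ha =>
  eqW_sound hM (allLin_sound (by rwa [prepL_eq] at h) a (Nat.zero_le _) (by omega))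

noncomputable abbrev w : Co0 := l0 M0 9
noncomputable abbrev t : Co0 := l0 M0 6
noncomputable abbrev A : Subgroup Co0 := Subgroup.zpowers w
noncomputable abbrev CA : Subgroup Co0 := Subgroup.centralizer (A : Set Co0)
noncomputable abbrev Z : Subgroup CA := (A ⊔ Subgroup.center Co0).subgroupOf CA

theorem mem_CA {c : Co0} : c ∈ CA ↔ c * w = w * c := by
  rw [CA, A, Subgroup.zpowers_eq_closure, Subgroup.centralizer_closure, Subgroup.mem_centralizer_singleton_iff]

theorem comm {y : Co0} (hy : y ∈ A ⊔ Subgroup.center Co0) {c : Co0} (hc : c ∈ CA) : c * y = y * c :=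
  (sup_le (Subgroup.le_centralizer_iff.1 le_rfl) (Subgroup.center_le_centralizer _) :
    _ ≤ Subgroup.centralizer (CA : Set Co0)) hy c hc

instance hn : Z.Normal := ⟨fun y hy c => by
  rwa [show c * y * c⁻¹ = y from Subtype.ext (mul_inv_eq_of_eq_mul (comm hy c.2))]⟩

abbrev S := CA ⧸ Z
noncomputable abbrev π : CA →* S := QuotientGroup.mk' Z

theorem l10 : l0 M0 10 = neg1 := (l0_eq (by decide +kernel)).trans S5388.l11
theorem w3 : w ^ 3 = 1 := by simpa [pow_succ, mul_assoc] using rel (u := [9, 9, 9]) (v := []) (by decide +kernel)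
def Zw : List (List ℕ) := [[], [9], [9, 9], [10], [9, 10], [9, 9, 10]]

theorem enumZ {y : Co0} (hy : y ∈ A ⊔ Subgroup.center Co0) : ∃ u ∈ Zw, y = ev (l0 M0) u := by
  obtain ⟨_, ⟨k, rfl⟩, z, hz, rfl⟩ : ∃ a ∈ Submonoid.powers w, ∃ z ∈ Subgroup.center Co0, a * z = y := by
    simpa only [mem_powers_iff_mem_zpowers] using Subgroup.mem_sup_of_normal_right.1 hy
  have := Nat.mod_lt k (show 0 < 3 by norm_num)
  show ∃ u ∈ Zw, w ^ k * z = _
  rw [pow_eq_pow_mod k w3]
  generalize k % 3 = j at this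
  rcases center_cases hz with rfl | rfl <;> interval_cases j <;> simp [Zw, l10, pow_two, mul_assoc]

theorem memA : ∀ a < 19, l0 M0 a ∈ CA := fun a ha => mem_CA.2 (by
  simpa using rels (f := fun a => [a, 9]) (g := fun a => [9, a]) (by decide +kernel) a ha)

noncomputable abbrev y : ℕ → CA := CenB.subL CA (l0 M0)
noncomputable def x (a : ℕ) : S := π (y a)

theorem coeY {u : List ℕ} (h : ∀ a ∈ u, a < 19) : (ev y u : CA) = ev (l0 M0) u :=
  (map_ev CA.subtype _ u).trans (ev_congr fun a ha => subL_coe (memA a (h a ha)))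

theorem evx (u : List ℕ) : ev x u = π (ev y u) := (map_ev π y u).symm

theorem eqS {u v : List ℕ} (hu : ∀ a ∈ u, a < 19) (hv : ∀ a ∈ v, a < 19) (h : ev (l0 M0) u = ev (l0 M0) v) :
    ev x u = ev x v := by rw [evx, evx, Subtype.ext ((coeY hu).trans (h.trans (coeY hv).symm))]

theorem quo {u v : List ℕ} (hu : ∀ a ∈ u, a < 19) (hv : ∀ a ∈ v, a < 19) (h : ev x u = ev x v) :
    ∃ z ∈ Zw, ev (l0 M0) u = ev (l0 M0) (v ++ z) := by
  rw [evx, evx] at h
  obtain ⟨z, hz, e⟩ := (QuotientGroup.mk'_eq_mk' _).1 h.symm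
  obtain ⟨r, hr, e2⟩ := enumZ hz
  exact ⟨r, hr, by rw [ev_append, ← e2, ← coeY hu, ← coeY hv, ← e]; rfl⟩

theorem neS {u v : List ℕ} {c : ℕ} (hc : VC c) (h : (prepL M0 fun ts => band (smallW 19 u) (band (smallW 19 v)
    (allL (fun z => band (smallW 19 (app v z)) (Nat.beq (actW ts u c) (actW ts (app v z) c)).not) Zw))) = true) :
    ev x u ≠ ev x v := fun e => by
  rw [prepL_eq] at h
  obtain ⟨z, hz, e⟩ := quo (fun a ha => Nat.le_of_ble_eq_true (allL_sound (band_l h) a ha))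
    (fun a ha => Nat.le_of_ble_eq_true (allL_sound (band_l (band_r h)) a ha)) e
  have h2 := allL_sound (band_r (band_r h)) z hz
  obtain ⟨a1, a2⟩ := actW_spec hM (band_l h) hc
  obtain ⟨b1, b2⟩ := actW_spec hM (band_l h2) hc
  have := band_r h2
  rw [a1.inj b1 (by rw [← a2, ← b2, app_eq, e]), Nat.beq_refl] at this
  cases this

theorem xZ {u : List ℕ} (h : ∀ a ∈ u, a = 9 ∨ a = 10) : ev x u = 1 :=
  (Subgroup.mem_bot.1 (ev_mem (x := x) (H := ⊥) fun a ha => Subgroup.mem_bot.2 ((QuotientGroup.eq_one_iff (N := Z) (y a)).2 (by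
    rw [Subgroup.mem_subgroupOf, subL_coe (memA a (by rcases h a ha with rfl | rfl <;> norm_num))]
    rcases h a ha with rfl | rfl
    · exact Subgroup.mem_sup_left (Subgroup.mem_zpowers _)
    · exact Subgroup.mem_sup_right (l10 ▸ neg1_central)))) :)

theorem cardA : Nat.card A = 3 := by
  rw [Nat.card_zpowers]
  refine orderOf_eq_prime w3 fun e => ?_
  obtain ⟨a1, a2⟩ := actW_spec hM (w := [9]) (by decide) ptU.1
  rw [ev_cons, ev_nil, mul_one, show l0 M0 9 = 1 from e, inv_one, one_smul] at a2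
  have h : (prepL M0 fun ts => Nat.beq (actW ts [9] cU) cU) = false := by decide +kernel
  rw [prepL_eq, ← ptU.1.inj a1 a2, Nat.beq_refl] at h
  cases h

theorem cardZ : 6 ≤ Nat.card Z := by
  rw [Nat.card_congr (Subgroup.subgroupOfEquivOfLe fun y hy => mem_CA.2
    (comm hy (mem_CA.2 rfl)).symm).toEquiv]
  exact Nat.le_of_dvd Nat.card_pos (Nat.Coprime.mul_dvd_of_dvd_of_dvd (m := 3) (n := 2) (by norm_num)
    (cardA ▸ Subgroup.card_dvd_of_le le_sup_left) (card_center ▸ Subgroup.card_dvd_of_le le_sup_right))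

theorem wl {Ms : List ℕ} (hM : ∀ M ∈ Ms, ok M = true) {K : Subgroup Co0} {C0 : List (List ℕ × ℕ)} {ls : List WL}
    (hK : ∀ c ∈ K, ∀ a < Ms.length, c * l0 Ms a = l0 Ms a * c)
    (h : (prepL Ms fun ts => wlOK ts Ms.length 4600 vc2 (I2.B.map vc2) C0 ls [cU]) = true) :
    Nat.card (K ⊓ fixB Co0 pt [cU] : Subgroup Co0) ≤ (ls.map WL.n).prod := by
  have f : ∀ c ∈ K ⊓ fixB Co0 pt [cU], (c : Equiv.Perm L) ∈ Co2 := fun c hc =>
    ⟨c.2, show c • U = U from ptU.2 ▸ hc.2 cU (by simp)⟩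
  have := wl_bound hM (K := K ⊓ fixB Co0 pt [cU]) vc2_spec.1 (fun c hc => hK c hc.1)
    (fun c hc => I2.hcl ⟨_, f c hc⟩) (fun c hc h => Subtype.ext (congrArg Subtype.val (I2.htb.2 ⟨_, f c hc⟩
      fun b hb => h _ (List.mem_map_of_mem hb)) :)) ls [cU] (by simpa using ptU.1) (by rwa [prepL_eq] at h)
  rwa [inf_assoc, inf_idem] at this

theorem ubA : Nat.card CA ≤ 196560 * 13685760 := by
  have := lev_bound (C := CA) (pt := pt) (N := 0) (b := cU) (B := []) (S := (Finset.range 196560).image mv)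
    fun c _ => by
      obtain ⟨i, hi, e⟩ := (od'.2.2 _).1 (SL_smul c (n := 32) sqU)
      exact ⟨_, Finset.mem_image_of_mem _ (Finset.mem_range.2 hi), by rw [ptU.2, e]⟩
  rw [fixB_nil, inf_top_eq] at this
  refine this.trans (Nat.mul_le_mul (Finset.card_image_le.trans (Finset.card_range _).le)
    ((wl (Ms := M1) (oks (by decide +kernel)) (fun c hc a ha => ?_) w1).trans (by decide +kernel)))
  obtain rfl | rfl : a = 0 ∨ a = 1 := by have : a < 2 := ha; omega
  · rw [l0_eq (Ms' := M0) (a' := 9) (by decide +kernel)]; exact mem_CA.1 hc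
  · rw [l0_eq (Ms' := M0) (a' := 10) (by decide +kernel), l10]
    exact Subgroup.mem_center_iff.1 neg1_central c

theorem tt : t = S5388.t := l0_eq (by decide +kernel)

theorem ι_k {a : ℕ} (ha : a < 7) : ι (k6 a) = l0 M0 a := by
  have h := inQ _ (gd_mem 0 (show a < MQ.length from ha))
  rw [k6, lk, dif_pos ⟨ha, h.2⟩, l0, if_pos (ha.trans (by decide)),
    show gd 0 M0 a = gd 0 MQ a by clear h; revert a; decide +kernel]
  rfl

theorem ubT : Nat.card (CA ⊓ Subgroup.centralizer {t} : Subgroup Co0) ≤ 240 * 82944 := by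
  have := lev_bound (C := CA ⊓ Subgroup.centralizer {t}) (pt := pt) (N := 0) (b := cU) (B := [])
    (S := S5388.S.image mv) fun c hc => by
      obtain ⟨i, hi, e⟩ := S5388.fx (SL_smul c (n := 32) sqU) (by
        rw [← tt, ← mul_smul, ← Subgroup.mem_centralizer_singleton_iff.1 hc.1.2, mul_smul, t, ← ι_k (by norm_num)]
        exact congrArg _ (k6 6).2.2)
      exact ⟨_, Finset.mem_image_of_mem _ hi, by rw [ptU.2, e]⟩
  rw [fixB_nil, inf_top_eq] at this
  refine this.trans (Nat.mul_le_mul (Finset.card_image_le.trans S5388.cardS.le)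
    ((wl (Ms := M3) (oks (by decide +kernel)) (fun c hc a ha => ?_) Sw.w3').trans (by decide +kernel)))
  obtain rfl | rfl | rfl : a = 0 ∨ a = 1 ∨ a = 2 := by have : a < 3 := ha; omega
  · rw [l0_eq (Ms' := M0) (a' := 9) (by decide +kernel)]; exact mem_CA.1 hc.1
  · rw [l0_eq (Ms' := M0) (a' := 10) (by decide +kernel), l10]
    exact Subgroup.mem_center_iff.1 neg1_central c
  · rw [l0_eq (Ms' := M0) (a' := 6) (by decide +kernel)]
    exact Subgroup.mem_centralizer_singleton_iff.1 hc.2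

theorem ev_map {G : Type*} [Group G] (x : ℕ → G) (u : List ℕ) :
    ev (fun l => x (l + 12)) u = ev x (u.map (· + 12)) := by
  induction u with
  | nil => rfl
  | cons a u ih => rw [List.map_cons, ev_cons, ev_cons, ih]

theorem simple : IsSimpleGroup S := by
  have hr := rels (n := 33) (f := fun i => pw ((gd ([], 0) H15.Suz.D.B i).1.map (· + 12)) (gd ([], 0) H15.Suz.D.B i).2)
    (g := gd [] rl) (by decide +kernel)
  have hs : ∀ i < 33, (∀ a ∈ (gd ([], 0) H15.Suz.D.B i).1, a < 7) ∧ ∀ a ∈ gd [] rl i, a = 9 ∨ a = 10 := by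
    decide +kernel
  have hB : ∀ p ∈ H15.Suz.D.B, H15.lprod (fun l => if l < 7 then x (l + 12) else 1) p.1 ^ p.2 = 1 := fun p hp => by
    obtain ⟨i, hi, rfl⟩ := (by decide +kernel : ∀ p ∈ H15.Suz.D.B, ∃ i < 33, gd ([], 0) H15.Suz.D.B i = p) p hp
    have h1 := hr i hi
    have h2 : ∀ a ∈ (gd ([], 0) H15.Suz.D.B i).1.map (· + 12), a < 19 := by
      simpa using fun a ha => (by have := (hs i hi).1 a ha; omega)
    rw [ev_pw, ← coeY h2, ← coeY fun a ha => by rcases (hs i hi).2 a ha with rfl | rfl <;> norm_num] at h1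
    have h3 : ev y _ ^ _ = ev y _ := Subtype.ext h1
    rw [lprod_eq, ev_congr (y := fun l => x (l + 12)) fun a ha => if_pos ((hs i hi).1 a ha), ev_map, evx, ← map_pow,
      h3, ← evx, xZ (hs i hi).2]
  obtain ⟨φ, hφ⟩ := H15.Suz.good.exists_hom (fun l => by
    by_cases h : l < 7
    · have := hB ([l, l], 1) ((by decide +kernel : ∀ l < 7, ([l, l], 1) ∈ H15.Suz.D.B) l h)
      rw [(by decide +kernel : ∀ l < 7, H15.Suz.D.inv l = l) l h]
      exact eq_inv_of_mul_eq_one_left (by simpa [lprod_eq] using this)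
    · rw [show H15.Suz.D.inv l = l by
        show (Bool.rec _ l (Nat.ble 7 l) : ℕ) = l
        rw [show Nat.ble 7 l = true from Nat.ble_eq ▸ not_lt.1 h], if_neg h, inv_one]) hB
  haveI := H15.Suz.simple
  have hi : Function.Injective φ := (MonoidHom.ker_eq_bot_iff φ).1
    ((inferInstance : φ.ker.Normal).eq_bot_or_eq_top.resolve_right fun e =>
      neS (u := [12]) (v := []) (od'.2.1 0 (by norm_num)) (by decide +kernel) (by
        simpa using (hφ 0 (by decide)).symm.trans (show _ ∈ φ.ker from e ▸ Subgroup.mem_top _)))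
  refine (MulEquiv.ofBijective φ (hi.bijective_of_nat_card_le ?_)).symm.isSimpleGroup
  have := (Nat.mul_le_mul_right (Nat.card S) cardZ).trans (Z.card_mul_index.le.trans ubA)
  rw [H15.Suz.card]
  omega

end Cfsg.Agent.H25.Sw
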